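import Cfsg.Agent.Leech.Aut
import Cfsg.Agent.Leech.Minimal
import Cfsg.Agent.Leech.Index

/-!
Vectors of the lattice used to exhibit a singular half.
-/

set_option autoImplicit false

namespace CfsgLib.MonsterPlus

open Cfsg CfsgLib.Golay CfsgLib.Leech

/-- Two coordinates four. -/
def four (i j : GolayPt) : GolayPt → ℤ := Pi.single i 4 + Pi.single j 4

theorem four_mem (i j : GolayPt) : four i j ∈ leechLattice := by
  rcases eq_or_ne i j with rfl | h
  · rw [four, ← Pi.single_add]
    exact single_mem i
  · exact minGen_le (pair_mem h (Or.inl rfl))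

/-- Two coordinates four, as a lattice vector. -/
def P (i j : GolayPt) : leechLattice := ⟨four i j, four_mem i j⟩

theorem P_comm (i j : GolayPt) : P i j = P j i := Subtype.ext (add_comm _ _)

theorem P_add (i j k : GolayPt) : P i j + P j k = P i k + P j j :=
  Subtype.ext (show four i j + four j k = four i k + four j j by simp only [four]; abel)

/-- A point. -/
def pa : GolayPt := some 0
/-- A point. -/
def pb : GolayPt := some 1
/-- A point. -/
def pc : GolayPt := some 2
/-- An octad. -/
def oct : Finset GolayPt := toSet 10558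
/-- A dodecad. -/
def dod : Finset GolayPt := toSet 715640

theorem oct_mem : oct ∈ supports (golayCode : Set (GolayPt → ZMod 2)) := by
  rw [mem_supports_iff]
  decide +kernel

theorem dod_mem : dod ∈ supports (golayCode : Set (GolayPt → ZMod 2)) := by
  rw [mem_supports_iff]
  decide +kernel

/-- The vector on the octad. -/
def v1 : leechLattice := ⟨two oct, two_mem oct_mem⟩

/-- The sign change on the dodecad. -/
def gX : Co0 := mono (one_mem M24) dod_mem

/-- The sign change on the octad. -/
def gO : Co0 := mono (one_mem M24) oct_mem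

theorem gX_v1 : gX.1 v1 + v1 = P pb pc := by
  have h : ∀ k, signedPerm 1 dod (two oct) k + two oct k = four pb pc k := by decide +kernel
  exact Subtype.ext (funext h)

theorem gX_u : gX.1 (P pa pb) = P pa pb := by
  have h : ∀ k, signedPerm 1 dod (four pa pb) k = four pa pb k := by decide +kernel
  exact Subtype.ext (funext h)

theorem gO_u : gO.1 (P pa pb) + P pa pb = P pa pa := by
  have h : ∀ k, signedPerm 1 oct (four pa pb) k + four pa pb k = four pa pa k := by decide +kernel
  exact Subtype.ext (funext h)

theorem perm_P {σ : Equiv.Perm GolayPt} (hσ : σ ∈ M24) (i j : GolayPt) :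
    (mono hσ empty_mem).1 (P i j) = P (σ i) (σ j) := by
  refine Subtype.ext (funext fun k => ?_)
  show signedPerm σ ∅ (four i j) k = four (σ i) (σ j) k
  rw [signedPerm, if_neg (Finset.notMem_empty k)]
  simp only [four, Pi.add_apply, Pi.single_apply, Equiv.symm_apply_eq]

/-- The doubles. -/
def sh : GolayPt → ℤ := fun i => if i ∈ oct then 1 else 0

/-- A correction vector. -/
def zc : GolayPt → ℤ := sh + Pi.single none 2

theorem sum_zc : (2 : ℤ) ∣ ∑ i, zc i := by decide +kernel

theorem odd_corr : (fun i => 1 - 2 * zc i) ∈ leechLattice := by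
  refine mem_lattice.2 ⟨1, Or.inr rfl, fun i => by omega, by decide +kernel, ?_⟩
  rw [mem_code_iff]
  decide +kernel

/-- The subgroup of the lattice generated by the pairs and the doubles contains a singular half. -/
theorem half_le (M : AddSubgroup leechLattice) (hP : ∀ i j, P i j ∈ M) (h2 : ∀ v, v + v ∈ M) :
    (halves signs).map dbl ≤ M.map leechLattice.subtype := by
  have hfour : ∀ z : GolayPt → ℤ, 2 ∣ ∑ i, z i → (fun i => 4 * z i) ∈ M.map leechLattice.subtype := by
    intro z hz
    obtain ⟨q, hq⟩ := hz
    have hd : ∀ j : GolayPt, (Pi.single j 4 - Pi.single none 4 : GolayPt → ℤ) ∈ M.map leechLattice.subtype := fun j => by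
      refine ⟨P j none - P none none, sub_mem (hP _ _) (hP _ _), ?_⟩
      show four j none - four none none = _
      simp only [four]
      abel
    have h8 : (Pi.single none 8 : GolayPt → ℤ) ∈ M.map leechLattice.subtype :=
      ⟨P none none, hP _ _, by show four none none = _; rw [four, ← Pi.single_add]; rfl⟩
    have e : (fun i => 4 * z i) =
        ∑ j, z j • (Pi.single j 4 - Pi.single none 4 : GolayPt → ℤ) + q • (Pi.single none 8 : GolayPt → ℤ) := by
      funext i
      simp only [Pi.add_apply, Finset.sum_apply, Pi.smul_apply, Pi.sub_apply, smul_eq_mul, mul_sub,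
        Finset.sum_sub_distrib]
      rw [← Finset.sum_mul, hq, Finset.sum_eq_single i (fun j _ hj => by simp [hj.symm])
        (fun h => absurd (Finset.mem_univ i) h)]
      rcases eq_or_ne i none with rfl | hi <;> simp [*] <;> ring
    rw [e]
    exact add_mem (sum_mem fun j _ => zsmul_mem (hd j) _) (zsmul_mem h8 q)
  rintro _ ⟨y, hy, rfl⟩
  obtain ⟨hs, hsum⟩ := mem_halves.1 hy
  rcases mem_signs.1 hs with h | h
  · have hy2 : ∀ i, y i = 2 * (y i / 2) := fun i => by
      have h' : ((y i : ℤ) : ZMod 2) = 0 := congrFun h i
      rw [ZMod.intCast_zmod_eq_zero_iff_dvd] at h'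
      omega
    have hsd : (2 : ℤ) ∣ ∑ i, y i / 2 := by
      have e : ∑ i, y i = 2 * ∑ i, y i / 2 := by
        rw [Finset.mul_sum]; exact Finset.sum_congr rfl fun i _ => hy2 i
      omega
    convert hfour _ hsd using 1
    funext i
    rw [dbl_apply]
    linarith [hy2 i]
  · have hy2 : ∀ i, y i = 2 * ((y i - 1) / 2) + 1 := fun i => by
      have h' : ((y i : ℤ) : ZMod 2) ≠ 0 := by
        rw [show ((y i : ℤ) : ZMod 2) = 1 from congrFun h i]; decide
      rw [cast2_iff] at h'
      omega
    have hsd : (2 : ℤ) ∣ ∑ i, ((y i - 1) / 2 + zc i) := by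
      have e : ∑ i, y i = 2 * ∑ i, (y i - 1) / 2 + 24 := by
        rw [Finset.mul_sum, Finset.sum_congr rfl fun i _ => hy2 i, Finset.sum_add_distrib, Finset.sum_const,
          Finset.card_univ, card_pt]
        simp
      have e2 := sum_zc
      rw [Finset.sum_add_distrib]
      omega
    have hd : (fun i => 2 * (1 - 2 * zc i)) ∈ M.map leechLattice.subtype := by
      refine ⟨_, h2 ⟨_, odd_corr⟩, funext fun i => ?_⟩
      show (1 - 2 * zc i) + (1 - 2 * zc i) = _
      ring
    convert add_mem (hfour _ hsd) hd using 1
    funext i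
    rw [Pi.add_apply, dbl_apply]
    linarith [hy2 i]

end CfsgLib.MonsterPlus
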