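/-
The stabiliser of the class of a minimal vector: what it can fix, and the singular sets it can keep.
-/
import Cfsg.Agent.MonsterPlus.Lattice
import Cfsg.Agent.Leech.Orbits
import Cfsg.Agent.Leech.Stab
import Cfsg.Agent.Leech.Classes
import Cfsg.Agent.Golay.M24

set_option autoImplicit false

namespace CfsgLib.MonsterPlus

open Cfsg CfsgLib.Golay CfsgLib.Leech
open scoped Pointwise

/-- Congruent modulo twice the lattice. -/
def Eqv (v w : leechLattice) : Prop := ∃ u : leechLattice, v = w + (u + u)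

theorem Eqv.cls_eq {v w : leechLattice} (h : Eqv v w) : cls v.1 = cls w.1 := by
  obtain ⟨u, rfl⟩ := h
  refine (cls_eq_iff (w + (u + u)).2 w.2).2 ⟨u.1, u.2, ?_⟩
  simp [two_smul]

theorem eqv_short (v : leechLattice) : ∃ x : leechLattice, sqNorm x.1 ≤ 64 ∧ Eqv v x := by
  obtain ⟨y, hy, hn, z, hz, e⟩ := frames_and_short.2 v.1 v.2
  refine ⟨⟨y, hy⟩, hn, ⟨z, hz⟩, Subtype.ext ?_⟩
  rw [two_smul] at e
  show v.1 = y + (z + z)
  rw [← e]; abel

theorem sqNorm_smul (g : Co0) (v : leechLattice) : sqNorm (g.1 v).1 = sqNorm v.1 := g.2.2 v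

theorem dot_comm (x y : GolayPt → ℤ) : dotInt x y = dotInt y x :=
  Finset.sum_congr rfl fun i _ => mul_comm _ _

theorem dot_smul (g : Co0) (v w : leechLattice) : dotInt (g.1 v).1 (g.1 w).1 = dotInt v.1 w.1 := by
  have h := sqNorm_smul g (v + w)
  rw [g.2.1, AddSubgroup.coe_add, AddSubgroup.coe_add, sqNorm_add, sqNorm_add, sqNorm_smul, sqNorm_smul] at h
  omega

/-- A negative pair. -/
def fourNeg (i j : GolayPt) : GolayPt → ℤ := Pi.single i 4 + Pi.single j (-4)

/-- A negative pair as a lattice vector. -/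
def N {i j : GolayPt} (h : i ≠ j) : leechLattice := ⟨fourNeg i j, minGen_le (pair_mem h (Or.inr rfl))⟩

theorem P_add_N {i j : GolayPt} (h : i ≠ j) : P i j + N h = eight i := by
  refine Subtype.ext (funext fun k => ?_)
  show four i j k + fourNeg i j k = (Pi.single i 8 : GolayPt → ℤ) k
  simp only [four, fourNeg, Pi.add_apply, Pi.single_apply]
  split_ifs <;> omega

theorem sqNorm_pair {i j : GolayPt} (h : i ≠ j) (a : ℤ) :
    sqNorm (Pi.single i 4 + Pi.single j a : GolayPt → ℤ) = 16 + a ^ 2 := by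
  have e : ∀ k, (Pi.single i 4 + Pi.single j a : GolayPt → ℤ) k ^ 2 =
      (if k = i then 16 else 0) + (if k = j then a ^ 2 else 0) := fun k => by
    simp only [Pi.add_apply, Pi.single_apply]
    split_ifs with h1 h2 <;> simp_all
  simp only [sqNorm, e, Finset.sum_add_distrib, Finset.sum_ite_eq', Finset.mem_univ, if_true]

theorem sqNorm_P {i j : GolayPt} (h : i ≠ j) : sqNorm (P i j).1 = 32 := by
  show sqNorm (four i j) = 32
  rw [four, sqNorm_pair h]; rfl

theorem dot_four (x : GolayPt → ℤ) (a b : GolayPt) : dotInt x (four a b) = 4 * x a + 4 * x b := by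
  simp only [dotInt, four, Pi.add_apply, mul_add, Finset.sum_add_distrib, Pi.single_apply, mul_ite,
    mul_zero, Finset.sum_ite_eq', Finset.mem_univ, if_true]
  ring

theorem flip_four {c : Finset GolayPt} {a b : GolayPt} (ha : a ∉ c) (hb : b ∉ c) :
    Leech.flip c (four a b) = four a b := by
  funext k
  simp only [Leech.flip, four, Pi.add_apply, Pi.single_apply]
  split_ifs <;> simp_all

/-! ### The computations on code words -/

/-- Two octads missing a block, meeting twice. -/
def octs2 : ℕ × ℕ :=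
  ((octList.filter fun o => o &&& 15 == 0).findSome? fun o =>
    ((octList.filter fun o => o &&& 15 == 0).find? fun o' => popc (o &&& o') == 2).map fun o' => (o, o')).getD (0, 0)

theorem octs2_ok : (inCode octs2.1 && inCode octs2.2 && decide (octs2.1 < 2 ^ 24) && decide (octs2.2 < 2 ^ 24) &&
    octs2.1 &&& 15 == 0 && octs2.2 &&& 15 == 0 && popc (octs2.1 &&& octs2.2) == 2) = true := by
  decide +kernel

theorem split_ok : (codeList.all fun h => h == 0 || h == 16777215 || octList.any fun d =>
    d &&& 15 == 0 && (popc (h &&& d) == 2 || popc (h &&& d) == 6)) = true := by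
  decide +kernel

theorem flips_ok : (codeList.all fun c => c == 0 || c == 16777215 || octList.any fun o =>
    o &&& 3 == 0 && (popc (c &&& o) != 0 && popc (c &&& o) != 8)) = true := by
  decide +kernel

theorem not_mem_block {m : ℕ} (h : m &&& 15 = 0) {p : GolayPt} (hp : blockOf p = 0) : p ∉ toSet m := by
  have h4 : ∀ p : GolayPt, blockOf p = 0 → (idx p).val < 4 := by decide +kernel
  intro hm
  have h1 := mem_toSet.1 hm
  have h2 : (m &&& 15).testBit (idx p).val = true := by
    rw [Nat.testBit_and, h1, Bool.true_and]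
    have := h4 p hp
    interval_cases (idx p).val <;> rfl
  rw [h] at h2
  simp at h2

theorem toSet_and (m n : ℕ) : toSet (m &&& n) = toSet m ∩ toSet n := by
  ext p
  simp [mem_toSet, Nat.testBit_and]

/-! ### Singular sets kept by the stabiliser of a pair class -/

/-- The points that are used. -/
def Good (a b : GolayPt) : Prop := a ≠ b ∧ blockOf a = 0 ∧ blockOf b = 0

/-- A set of vectors as the stabiliser of a pair class would keep. -/
structure Family (a b : GolayPt) (W : AddSubgroup leechLattice) : Prop where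
  dbl : ∀ u, u + u ∈ W
  sing : ∀ y ∈ W, (32 : ℤ) ∣ sqNorm y.1
  stab : ∀ g ∈ crossStab, g.1 (P a b) = P a b → ∀ y ∈ W, g.1 y ∈ W

variable {a b : GolayPt} {W : AddSubgroup leechLattice}

theorem Family.dot (F : Family a b W) {x y : leechLattice} (hx : x ∈ W) (hy : y ∈ W) :
    (16 : ℤ) ∣ dotInt x.1 y.1 := by
  have := F.sing _ hx
  have := F.sing _ hy
  have h := F.sing _ (add_mem hx hy)
  rw [AddSubgroup.coe_add, sqNorm_add] at h
  omega

theorem Family.flip_sub (F : Family a b W) {y : leechLattice} (hy : y ∈ W) {c : Finset GolayPt}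
    (hc : c ∈ supports (golayCode : Set (GolayPt → ZMod 2))) (ha : a ∉ c) (hb : b ∉ c) :
    ∃ x ∈ W, ∀ k, x.1 k = if k ∈ c then 2 * y.1 k else 0 := by
  have hfix : (mono (one_mem M24) hc).1 (P a b) = P a b := by
    refine Subtype.ext (funext fun k => ?_)
    show signedPerm 1 c (four a b) k = four a b k
    rw [← congrFun (flip_four ha hb) k]
    simp [signedPerm, Leech.flip, perm_one_symm]
  refine ⟨y - (mono (one_mem M24) hc).1 y, sub_mem hy (F.stab _ (mono_mem_crossStab _ _) hfix y hy), fun k => ?_⟩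
  show y.1 k - signedPerm 1 c y.1 k = _
  simp only [signedPerm, perm_one_symm]
  split_ifs <;> ring

theorem Family.even (F : Family a b W) (hG : Good a b) {y : leechLattice} (hy : y ∈ W) :
    ∀ i, y.1 i % 2 = 0 := by
  obtain ⟨m, hm, h1, -, -⟩ := mem_lattice.1 y.2
  rcases hm with rfl | rfl
  · exact h1
  exfalso
  have ho := octs2_ok
  simp only [Bool.and_eq_true, decide_eq_true_eq, beq_iff_eq] at ho
  obtain ⟨⟨⟨⟨⟨⟨c1, c2⟩, l1⟩, l2⟩, n1⟩, n2⟩, np⟩ := ho
  obtain ⟨x, hx, ex⟩ := F.flip_sub hy (toSet_mem c1 l1) (not_mem_block n1 hG.2.1) (not_mem_block n1 hG.2.2)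
  obtain ⟨x', hx', ex'⟩ := F.flip_sub hy (toSet_mem c2 l2) (not_mem_block n2 hG.2.1) (not_mem_block n2 hG.2.2)
  have hd := F.dot hx hx'
  have hcard : (toSet octs2.1 ∩ toSet octs2.2).card = 2 := by
    rw [← toSet_and, card_toSet (lt_of_le_of_lt Nat.and_le_left l1), np]
  obtain ⟨i, j, hij, e⟩ := Finset.card_eq_two.1 hcard
  have hdot : dotInt x.1 x'.1 = 4 * y.1 i ^ 2 + 4 * y.1 j ^ 2 := by
    have : ∀ k, x.1 k * x'.1 k = if k ∈ toSet octs2.1 ∩ toSet octs2.2 then 4 * y.1 k ^ 2 else 0 := fun k => by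
      rw [ex, ex']
      simp only [Finset.mem_inter]
      split_ifs <;> simp_all <;> ring
    simp only [dotInt, this, e]
    rw [Finset.sum_ite_mem, Finset.univ_inter, Finset.sum_pair hij]
  have odd_sq : ∀ t : ℤ, t % 2 = 1 → t ^ 2 % 4 = 1 := fun t ht => by
    obtain ⟨q, rfl⟩ : ∃ q, t = 2 * q + 1 := ⟨t / 2, by omega⟩
    ring_nf; omega
  have := odd_sq _ (h1 i)
  have := odd_sq _ (h1 j)
  omega

theorem inj4 {α : Type*} {w x y z : α} (h1 : w ≠ x) (h2 : w ≠ y) (h3 : w ≠ z) (h4 : x ≠ y) (h5 : x ≠ z) (h6 : y ≠ z) :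
    Function.Injective ![w, x, y, z] := by
  intro s t hst
  fin_cases s <;> fin_cases t <;> simp at hst ⊢
  all_goals first
    | exact h1 hst | exact h2 hst | exact h3 hst | exact h4 hst | exact h5 hst | exact h6 hst
    | exact h1 hst.symm | exact h2 hst.symm | exact h3 hst.symm | exact h4 hst.symm | exact h5 hst.symm | exact h6 hst.symm

/-- An element of the group moving two further points as wished. -/
theorem exists_stab_two {p q p' q' : GolayPt} (hab : a ≠ b) (h1 : p ≠ q) (h2 : p' ≠ q')
    (hp : p ≠ a ∧ p ≠ b) (hq : q ≠ a ∧ q ≠ b) (hp' : p' ≠ a ∧ p' ≠ b) (hq' : q' ≠ a ∧ q' ≠ b) :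
    ∃ σ ∈ M24, σ a = a ∧ σ b = b ∧ σ p = p' ∧ σ q = q' := by
  obtain ⟨σ, hσ, e⟩ := exists_map_tuple (n := 4) (by norm_num) ![a, b, p, q] ![a, b, p', q']
    (inj4 hab hp.1.symm hq.1.symm hp.2.symm hq.2.symm h1) (inj4 hab hp'.1.symm hq'.1.symm hp'.2.symm hq'.2.symm h2)
  exact ⟨σ, hσ, e 0, e 1, e 2, e 3⟩

theorem perm_fix {σ : Equiv.Perm GolayPt} (hσ : σ ∈ M24) (ha : σ a = a) (hb : σ b = b) :
    (mono hσ empty_mem).1 (P a b) = P a b := by
  rw [perm_P, ha, hb]

theorem mono_val {σ : Equiv.Perm GolayPt} (hσ : σ ∈ M24) (y : leechLattice) (k : GolayPt) :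
    ((mono hσ empty_mem).1 y).1 k = y.1 (σ.symm k) := by
  rw [mono_apply]
  simp [signedPerm]

/-- The halves of the vectors of the set are constant. -/
theorem Family.half_const (F : Family a b W) (hG : Good a b) {y : leechLattice} (hy : y ∈ W) :
    half y.1 = 0 ∨ half y.1 = 1 := by
  have hev := F.even hG hy
  obtain ⟨m, hm, h1, -, hcode⟩ := mem_lattice.1 y.2
  have hm0 : m = 0 := by have := h1 none; have := hev none; omega
  subst hm0
  replace hcode : half y.1 ∈ golayCode := hcode
  by_contra hne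
  rw [not_or] at hne
  set h : Finset GolayPt := support₂ (half y.1) with hh
  have hin : inCode (mask h) = true := mem_code_iff.1 hcode
  have hmem : mask h ∈ codeList := mem_codeList.2 ⟨hin, mask_lt h⟩
  have hs := List.all_eq_true.1 split_ok _ hmem
  simp only [Bool.or_eq_true, beq_iff_eq, List.any_eq_true, Bool.and_eq_true] at hs
  have h0 : h ≠ ∅ := fun e => hne.1 (support_injective (by rw [← hh, e]; simp [support₂]))
  have hu : h ≠ Finset.univ := fun e => hne.2 (support_injective (by rw [← hh, e]; simp [support₂]))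
  rcases hs with (e | e) | ⟨d, hd, hdb, hdc⟩
  · exact h0 (mask_injective (e.trans mask_empty.symm))
  · exact hu (mask_injective (e.trans mask_univ.symm))
  have hd' := mem_wtList.1 hd
  obtain ⟨x, hx, ex⟩ := F.flip_sub hy (toSet_mem hd'.1 hd'.2.1) (not_mem_block hdb hG.2.1) (not_mem_block hdb hG.2.2)
  set D := toSet d with hD
  have hDa : a ∉ D := not_mem_block hdb hG.2.1
  have hDb : b ∉ D := not_mem_block hdb hG.2.2
  have hcD : D ∈ supports (golayCode : Set (GolayPt → ZMod 2)) := toSet_mem hd'.1 hd'.2.1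
  have hcH : h ∈ supports (golayCode : Set (GolayPt → ZMod 2)) := support_mem hcode
  -- the parity seen by the orthogonality
  have hpar : ∀ σ : Equiv.Perm GolayPt, σ ∈ M24 → σ a = a → σ b = b →
      Even ((h ∩ σ • (h ∩ D)).card) := by
    intro σ hσ e1 e2
    have hd2 := F.dot hy (F.stab _ (mono_mem_crossStab _ _) (perm_fix hσ e1 e2) x hx)
    have key : ∀ k, y.1 k * ((mono hσ empty_mem).1 x).1 k % 16 =
        if k ∈ h ∩ σ • (h ∩ D) then 8 else 0 := by
      intro k
      rw [mono_val, ex]
      have hk : ∀ i, i ∈ h ↔ (y.1 i / 2) % 2 = 1 := fun i => mem_support_half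
      have hm : k ∈ h ∩ σ • (h ∩ D) ↔ k ∈ h ∧ σ.symm k ∈ h ∧ σ.symm k ∈ D := by
        rw [Finset.mem_inter, Finset.mem_smul_finset]
        simp only [Finset.mem_inter, Equiv.Perm.smul_def]
        constructor
        · rintro ⟨h', i, hi, rfl⟩; simp [h', hi]
        · rintro ⟨h', hi⟩; exact ⟨h', σ.symm k, hi, by simp⟩
      simp only [hm, hk]
      have := hev k
      have := hev (σ.symm k)
      obtain ⟨s, hs⟩ : ∃ s, y.1 k = 2 * s := ⟨y.1 k / 2, by omega⟩
      obtain ⟨t, ht⟩ : ∃ t, y.1 (σ.symm k) = 2 * t := ⟨y.1 (σ.symm k) / 2, by omega⟩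
      rw [hs, ht]
      simp only [Int.mul_ediv_cancel_left _ (two_ne_zero' ℤ)]
      by_cases hDk : σ.symm k ∈ D
      · simp only [hDk, and_true, if_true]
        rw [show 2 * s * (2 * (2 * t)) = 8 * (s * t) by ring]
        have : s * t % 2 = (s % 2) * (t % 2) % 2 := Int.mul_emod _ _ _
        split_ifs with hc
        · rw [hc.1, hc.2] at this; omega
        · rcases (by omega : s % 2 = 0 ∨ s % 2 = 1) with e | e <;>
            rcases (by omega : t % 2 = 0 ∨ t % 2 = 1) with e' | e' <;> simp_all <;> omega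
      · simp [hDk]
    have hsum : (dotInt y.1 ((mono hσ empty_mem).1 x).1) % 16 =
        (8 * ((h ∩ σ • (h ∩ D)).card : ℤ)) % 16 := by
      rw [dotInt, Finset.sum_int_mod, Finset.sum_congr rfl fun k _ => key k, Finset.sum_ite_mem,
        Finset.univ_inter, Finset.sum_const, nsmul_eq_mul, mul_comm]
    rw [Nat.even_iff]
    omega
  -- a point inside and a point outside
  have hcard : 8 ≤ h.card ∧ h.card ≤ 16 := by
    have := support_card_cases hin
    have h24 : h.card ≠ 24 := fun e => hu (Finset.eq_univ_of_card _ (e.trans card_pt.symm))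
    have : h.card ≠ 0 := fun e => h0 (Finset.card_eq_zero.1 e)
    omega
  have hout : ∀ u : Finset GolayPt, 3 ≤ u.card → ∃ p ∈ u, p ≠ a ∧ p ≠ b := fun u hu3 => by
    by_contra hc
    push Not at hc
    have : u ⊆ {a, b} := fun p hp => by
      rcases eq_or_ne p a with e | e
      · simp [e]
      · simp [hc p hp e]
    have := Finset.card_le_card this
    have := Finset.card_le_two (a := a) (b := b)
    omega
  obtain ⟨p', hp'h, hp'⟩ := hout h (by omega)
  obtain ⟨q', hq'h, hq'⟩ := hout hᶜ (by rw [Finset.card_compl, card_pt]; omega)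
  rw [Finset.mem_compl] at hq'h
  have hpq' : p' ≠ q' := fun e => hq'h (e ▸ hp'h)
  have hnD : ∀ r ∈ D, r ≠ a ∧ r ≠ b := fun r hr => ⟨fun e => hDa (e ▸ hr), fun e => hDb (e ▸ hr)⟩
  have hle : d < 2 ^ 24 := hd'.2.1
  have hcap : (h ∩ D).card = popc (mask h &&& d) := by
    rw [← popc_mask, mask_inter, hD, mask_toSet hle]
  have hD8 : D.card = 8 := by rw [hD, card_toSet hle, hd'.2.2]
  rcases hdc with e | e
  · obtain ⟨p, q, hpq, hpq2⟩ := Finset.card_eq_two.1 (hcap.trans e)
    have hpD : p ∈ D := (Finset.mem_inter.1 (hpq2 ▸ Finset.mem_insert_self p {q})).2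
    have hqD : q ∈ D := (Finset.mem_inter.1 (hpq2 ▸ Finset.mem_insert_of_mem (Finset.mem_singleton_self q))).2
    obtain ⟨σ, hσ, e1, e2, e3, e4⟩ := exists_stab_two hG.1 hpq hpq' (hnD p hpD) (hnD q hqD) hp' hq'
    have hev2 := hpar σ hσ e1 e2
    rw [hpq2, Finset.smul_finset_insert, Finset.smul_finset_singleton, Equiv.Perm.smul_def,
      Equiv.Perm.smul_def, e3, e4, Finset.inter_insert_of_mem hp'h, Finset.inter_singleton_of_notMem hq'h] at hev2
    simp at hev2
  · have hrest : (D \ h).card = 2 := by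
      have := Finset.card_sdiff_add_card_inter D h
      rw [Finset.inter_comm] at this
      omega
    obtain ⟨p, q, hpq, hpq2⟩ := Finset.card_eq_two.1 hrest
    have hpD : p ∈ D := (Finset.mem_sdiff.1 (hpq2 ▸ Finset.mem_insert_self p {q})).1
    have hqD : q ∈ D := (Finset.mem_sdiff.1 (hpq2 ▸ Finset.mem_insert_of_mem (Finset.mem_singleton_self q))).1
    obtain ⟨σ, hσ, e1, e2, e3, e4⟩ := exists_stab_two hG.1 hpq hpq' (hnD p hpD) (hnD q hqD) hp' hq'
    have hev2 := hpar σ hσ e1 e2
    have hall : Even ((h ∩ σ • D).card) := even_iff_two_dvd.2 <| card_inter_even hcH (show σ • D ∈ supports (golayCode : Set (GolayPt → ZMod 2)) by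
      rw [← MulAction.mem_stabilizer_iff.1 hσ]; exact Set.smul_mem_smul_set hcD)
    have hsplit : (h ∩ σ • D).card = (h ∩ σ • (h ∩ D)).card + (h ∩ σ • (D \ h)).card := by
      have hdis : Disjoint (h ∩ σ • (h ∩ D)) (h ∩ σ • (D \ h)) := by
        refine Finset.disjoint_left.2 fun r h1 h2 => ?_
        obtain ⟨u, hu', rfl⟩ := Finset.mem_smul_finset.1 (Finset.mem_inter.1 h1).2
        obtain ⟨w, hw, hw'⟩ := Finset.mem_smul_finset.1 (Finset.mem_inter.1 h2).2
        rw [smul_left_cancel σ hw'] at hw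
        exact (Finset.mem_sdiff.1 hw).2 (Finset.mem_inter.1 hu').1
      rw [← Finset.card_union_of_disjoint hdis, ← Finset.inter_union_distrib_left, ← Finset.smul_finset_union,
        Finset.inter_comm h D, Finset.union_comm, Finset.sdiff_union_inter]
    rw [hpq2, Finset.smul_finset_insert, Finset.smul_finset_singleton, Equiv.Perm.smul_def,
      Equiv.Perm.smul_def, e3, e4, Finset.inter_insert_of_mem hp'h, Finset.inter_singleton_of_notMem hq'h] at hsplit
    simp only [insert_empty_eq, Finset.card_singleton] at hsplit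
    rw [Nat.even_iff] at hev2 hall
    omega

/-! ### Contradiction from two pair classes exchanged by the exceptional map -/

/-- Points in three further blocks. -/
def far : Fin 3 → GolayPt := ![pt 13, pt 5, pt 8]

theorem far_block : ∀ i : Fin 3, blockOf (far i) = i.val + 1 := by decide +kernel

theorem blockOf_lt : ∀ p : GolayPt, blockOf p < 6 := by decide +kernel

theorem half_xi {y : GolayPt → ℤ} (z : GolayPt → ℤ) (hz : ∀ k, y k = 4 * z k) (k : GolayPt) :
    half (xiVal y) k = (blockSum z k : ZMod 2) := by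
  have e : y = fun k => 4 * z k := funext hz
  subst e
  have hs : blockSum (fun k => 4 * z k) k = 4 * blockSum z k := by simp only [blockSum, Finset.mul_sum]
  show (((xiTwo (fun k => 4 * z k) k / 2) / 2 : ℤ) : ZMod 2) = _
  rw [xiTwo_apply, hs, blockSign]
  refine cast2_eq ?_
  split_ifs <;> omega

theorem cast_blockSum (z : GolayPt → ℤ) (k : GolayPt) :
    (blockSum z k : ZMod 2) =
      (((Finset.univ.filter fun q => blockOf q = blockOf k) ∩ Finset.univ.filter fun q => z q % 2 = 1).card : ZMod 2) := by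
  rw [blockSum, Int.cast_sum, Finset.card_eq_sum_ones, Nat.cast_sum]
  simp only [Nat.cast_one]
  rw [← Finset.sum_filter_add_sum_filter_not (Finset.univ.filter fun q => blockOf q = blockOf k) (fun q => z q % 2 = 1)]
  rw [Finset.sum_congr rfl (g := fun _ => (1 : ZMod 2)) (fun q hq => ?_),
    Finset.sum_congr rfl (g := fun _ => (0 : ZMod 2)) (s₁ := (Finset.univ.filter fun q => blockOf q = blockOf k).filter
      fun q => ¬ z q % 2 = 1) (fun q hq => ?_)]
  · rw [Finset.sum_const_zero, add_zero]
    refine Finset.sum_congr (Finset.ext fun q => ?_) fun _ _ => rfl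
    simp
  · have := (Finset.mem_filter.1 hq).2
    exact (cast2_eq (b := 0) (by omega)).trans Int.cast_zero
  · have := (Finset.mem_filter.1 hq).2
    exact (cast2_eq (b := 1) (by omega)).trans Int.cast_one

variable {c d : GolayPt} {W' : AddSubgroup leechLattice}

/-- A vector of fours is impossible. -/
theorem Family.no_fours (F : Family a b W) (F' : Family c d W') (hG : Good a b) (hG' : Good c d)
    (hxi : ∀ y ∈ W, xi.1 y ∈ W') {y : leechLattice} (hy : y ∈ W) {z : GolayPt → ℤ}
    (hz : ∀ k, y.1 k = 4 * z k) {T : Finset GolayPt} (hT : ∀ k, k ∈ T ↔ z k % 2 = 1)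
    (hcard : T.card ≤ 4) (hne : ∃ p ∈ T, p ≠ a ∧ p ≠ b) : False := by
  classical
  -- place the points
  set T' := T.filter fun p => p ≠ a ∧ p ≠ b with hT'
  set k := min T'.card 3 with hk
  have hk1 : 1 ≤ k := by
    obtain ⟨p, hp, hp'⟩ := hne
    have : 0 < T'.card := Finset.card_pos.2 ⟨p, Finset.mem_filter.2 ⟨hp, hp'⟩⟩
    omega
  let e := T'.equivFin
  let f : Fin k → GolayPt := fun i => (e.symm (Fin.castLE (min_le_left _ _) i)).1
  have hf : Function.Injective f := fun i j h =>
    Fin.castLE_injective _ (e.symm.injective (Subtype.ext h))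
  have hfT : ∀ i, f i ∈ T ∧ f i ≠ a ∧ f i ≠ b := fun i => by
    have := (e.symm (Fin.castLE (min_le_left _ _) i)).2
    exact ⟨(Finset.mem_filter.1 this).1, (Finset.mem_filter.1 this).2⟩
  let g : Fin k → GolayPt := fun i => far (Fin.castLE (min_le_right _ _) i)
  have hg : Function.Injective g := fun i j h => by
    have h' := congrArg blockOf h
    rw [far_block, far_block] at h'
    simp at h'
    exact Fin.ext (by omega)
  have hgb : ∀ i, g i ≠ a ∧ g i ≠ b := fun i => by
    have := far_block (Fin.castLE (min_le_right _ _) i)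
    constructor <;> intro h <;> simp only [g] at h <;> rw [h] at this
    · rw [hG.2.1] at this; omega
    · rw [hG.2.2] at this; omega
  obtain ⟨σ, hσ, hσe⟩ := exists_map_tuple (n := k + 2) (by omega) (Matrix.vecCons a (Matrix.vecCons b f))
    (Matrix.vecCons a (Matrix.vecCons b g))
    (by
      rw [Matrix.vecCons, Fin.cons_injective_iff, Matrix.vecCons, Fin.cons_injective_iff]
      refine ⟨fun ⟨i, hi⟩ => ?_, fun ⟨i, hi⟩ => (hfT i).2.2 hi, hf⟩
      refine Fin.cases (fun hi => hG.1 (by simpa using hi.symm)) (fun j hi => (hfT j).2.1 (by simpa using hi)) i hi)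
    (by
      rw [Matrix.vecCons, Fin.cons_injective_iff, Matrix.vecCons, Fin.cons_injective_iff]
      refine ⟨fun ⟨i, hi⟩ => ?_, fun ⟨i, hi⟩ => (hgb i).2 hi, hg⟩
      refine Fin.cases (fun hi => hG.1 (by simpa using hi.symm)) (fun j hi => (hgb j).1 (by simpa using hi)) i hi)
  have ea : σ a = a := by simpa using hσe 0
  have eb : σ b = b := by simpa using hσe 1
  have ef : ∀ i, σ (f i) = g i := fun i => by simpa using hσe i.succ.succ
  set u := σ • T with hu
  have hcu : u.card ≤ 4 := by rw [hu, Finset.card_smul_finset]; exact hcard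
  have hy' := hxi _ (F.stab _ (mono_mem_crossStab _ _) (perm_fix hσ ea eb) y hy)
  have hhalf : ∀ p, half (xi.1 ((mono hσ empty_mem).1 y)).1 p =
      (((Finset.univ.filter fun q => blockOf q = blockOf p) ∩ u).card : ZMod 2) := fun p => by
    rw [xi_apply, half_xi (fun k => z (σ.symm k)) (fun k => by rw [mono_val, hz]), cast_blockSum]
    congr 3
    ext q
    simp [hu, Finset.mem_smul_finset, hT]
    constructor
    · intro h; exact ⟨σ.symm q, h, by simp⟩
    · rintro ⟨w, hw, rfl⟩; simpa using hw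
  have hconst : ∀ p q, half (xi.1 ((mono hσ empty_mem).1 y)).1 p = half (xi.1 ((mono hσ empty_mem).1 y)).1 q := by
    intro p q
    rcases F'.half_const hG' hy' with h | h <;> simp [h]
  -- the number of points of the image in each block
  let cnt : ℕ → ℕ := fun β => (u.filter fun q => blockOf q = β).card
  have hcnt : ∀ β γ, β < 6 → γ < 6 → cnt β % 2 = cnt γ % 2 := by
    have hsurj : ∀ β < 6, ∃ p : GolayPt, blockOf p = β := by decide +kernel
    intro β γ hβ hγ
    obtain ⟨p, rfl⟩ := hsurj β hβ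
    obtain ⟨q, rfl⟩ := hsurj γ hγ
    have h := hconst p q
    rw [hhalf, hhalf, ZMod.natCast_eq_natCast_iff'] at h
    have e : ∀ p, cnt (blockOf p) = ((Finset.univ.filter fun q => blockOf q = blockOf p) ∩ u).card := fun p => by
      show (u.filter fun q => blockOf q = blockOf p).card = _
      refine congrArg Finset.card (Finset.ext fun q => ?_)
      simp [and_comm]
    rw [e, e]; exact h
  have htot : ∑ β ∈ Finset.range 6, cnt β = u.card :=
    (Finset.card_eq_sum_card_fiberwise fun q _ => Finset.mem_range.2 (blockOf_lt q)).symm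
  simp only [Finset.sum_range_succ, Finset.sum_range_zero, zero_add] at htot
  have hone : ∀ i : Fin k, 1 ≤ cnt (i.val + 1) := fun i => Finset.card_pos.2 ⟨g i, Finset.mem_filter.2
    ⟨Finset.mem_smul_finset.2 ⟨f i, (hfT i).1, ef i⟩, far_block _⟩⟩
  have := hcnt 0 1 (by omega) (by omega)
  have := hcnt 1 2 (by omega) (by omega)
  have := hcnt 2 3 (by omega) (by omega)
  have := hcnt 3 4 (by omega) (by omega)
  have := hcnt 4 5 (by omega) (by omega)
  have h1 := hone ⟨0, hk1⟩
  rcases (by omega : k = 3 ∨ k ≤ 2) with hk3 | hk2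
  · have h2 := hone ⟨1, by omega⟩
    have h3 := hone ⟨2, by omega⟩
    simp at h1 h2 h3
    omega
  · -- few points: the first further block has exactly one
    have hT2 : T'.card ≤ 2 := by omega
    have hsub : u ⊆ insert a (insert b (Finset.univ.image g)) := by
      intro q hq
      obtain ⟨w, hw, rfl⟩ := Finset.mem_smul_finset.1 hq
      simp only [Finset.mem_insert, Finset.mem_image, Finset.mem_univ, true_and, Equiv.Perm.smul_def]
      rcases eq_or_ne w a with rfl | hwa
      · exact Or.inl ea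
      rcases eq_or_ne w b with rfl | hwb
      · exact Or.inr (Or.inl eb)
      have hw' : w ∈ T' := Finset.mem_filter.2 ⟨hw, hwa, hwb⟩
      refine Or.inr (Or.inr ⟨⟨(e ⟨w, hw'⟩).val, by omega⟩, ?_⟩)
      rw [← ef]
      simp [f, Fin.castLE]
    have hle : cnt 1 ≤ 1 := Finset.card_le_one.2 fun q hq r hr => by
      simp only [Finset.mem_filter] at hq hr
      have key : ∀ q ∈ u, blockOf q = 1 → q = g ⟨0, hk1⟩ := fun q hq hb1 => by
        rcases Finset.mem_insert.1 (hsub hq) with rfl | hq'
        · rw [hG.2.1] at hb1; omega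
        rcases Finset.mem_insert.1 hq' with rfl | hq''
        · rw [hG.2.2] at hb1; omega
        obtain ⟨i, -, rfl⟩ := Finset.mem_image.1 hq''
        simp only [g, far_block] at hb1
        simp at hb1
        exact congrArg g (Fin.ext hb1)
      rw [key q hq.1 hq.2, key r hr.1 hr.2]
    simp at h1
    omega

theorem xi_P : xi.1 (P pa pb) = P pc (pt 3) ∧ xi.1 (P pc (pt 3)) = P pa pb := by
  have h : (∀ k, xiVal (four pa pb) k = four pc (pt 3) k) ∧ (∀ k, xiVal (four pc (pt 3)) k = four pa pb k) := by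
    decide +kernel
  exact ⟨Subtype.ext (funext h.1), Subtype.ext (funext h.2)⟩

theorem good_points : Good pa pb ∧ Good pc (pt 3) := by
  unfold Good
  decide +kernel

/-- A vector of the set which is not a double or the pair gives a contradiction. -/
theorem Family.trivial (F : Family pa pb W) (F' : Family pc (pt 3) W') (hv : P pa pb ∈ W)
    (hxi : ∀ y ∈ W, xi.1 y ∈ W') (hxi' : ∀ y ∈ W', xi.1 y ∈ W) {y : leechLattice} (hy : y ∈ W)
    (h0 : ¬ Eqv y 0) (h1 : ¬ Eqv y (P pa pb)) : False := by
  classical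
  obtain ⟨hG, hG'⟩ := good_points
  obtain ⟨x, hxn, w, rfl⟩ := eqv_short y
  have hx : x ∈ W := by simpa using sub_mem hy (F.dbl w)
  have hev := F.even hG hx
  -- a whole eight
  have hE : ∀ i, eight i ∈ W → False := fun i hi => by
    have hdiff : ∀ j, ∃ u : leechLattice, eight j = eight i + (u + u) := fun j => by
      rcases eq_or_ne j i with rfl | hji
      · exact ⟨0, by simp⟩
      refine ⟨N hji, Subtype.ext (funext fun k => ?_)⟩
      show (Pi.single j 8 : GolayPt → ℤ) k = (Pi.single i 8 : GolayPt → ℤ) k + (fourNeg j i k + fourNeg j i k)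
      simp only [fourNeg, Pi.add_apply, Pi.single_apply]
      split_ifs <;> omega
    obtain ⟨u, hu⟩ := hdiff (far 0)
    have h8 : eight (far 0) ∈ W := hu ▸ add_mem hi (F.dbl u)
    refine F'.no_fours F hG' hG hxi' (hxi _ h8) (z := fun k => xiVal (Pi.single (far 0) 8) k / 4)
      (fun k => ?_) (T := Finset.univ.filter fun k => blockOf k = 1) (fun k => ?_) ?_ ?_
    · have h : ∀ k, xiVal (Pi.single (far 0) 8) k % 4 = 0 := by decide +kernel
      show xiVal (Pi.single (far 0) 8) k = _
      have := h k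
      omega
    · have h : ∀ k, blockOf k = 1 ↔ xiVal (Pi.single (far 0) 8) k / 4 % 2 = 1 := by decide +kernel
      simpa using h k
    · have h : (Finset.univ.filter fun k => blockOf k = 1).card = 4 := by decide +kernel
      omega
    · exact ⟨far 0, by simpa using far_block 0, by decide +kernel⟩
  obtain ⟨m, hm, hpar, hsum, -⟩ := mem_lattice.1 x.2
  have hm0 : m = 0 := by have := hpar none; have := hev none; omega
  subst hm0
  have h4 : ∀ k, x.1 k % 4 = 0 := by
    rcases F.half_const hG hx with h | h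
    · intro k
      have := hev k
      have : (x.1 k / 2) % 2 = 0 := by
        by_contra hc
        have hk : half x.1 k ≠ 0 := (cast2_iff _).2 (by omega)
        exact hk (congrFun h k)
      omega
    · exfalso
      have hsq : ∑ _k : GolayPt, (4 : ℤ) ≤ sqNorm x.1 := Finset.sum_le_sum fun k _ => by
        have := hev k
        have hc : half x.1 k ≠ 0 := by rw [congrFun h k]; exact one_ne_zero
        have : x.1 k / 2 % 2 = 1 := (cast2_iff _).1 hc
        have hne : x.1 k ≠ 0 := by omega
        obtain ⟨s, hs⟩ : ∃ s, x.1 k = 2 * s := ⟨x.1 k / 2, by omega⟩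
        have := one_le_sq_of_ne_zero (a := s) (by omega)
        rw [hs, mul_pow]; omega
      rw [Finset.sum_const, Finset.card_univ, card_pt] at hsq
      simp at hsq
      omega
  set z : GolayPt → ℤ := fun k => x.1 k / 4
  have hz : ∀ k, x.1 k = 4 * z k := fun k => by simp only [z]; have := h4 k; omega
  have hn : ∑ k, z k ^ 2 ≤ 4 := by
    have : sqNorm x.1 = 16 * ∑ k, z k ^ 2 := by
      rw [sqNorm, Finset.mul_sum]; exact Finset.sum_congr rfl fun k _ => by rw [hz]; ring
    omega
  have hone : ∀ k, z k ^ 2 ≤ 4 := fun k =>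
    le_trans (Finset.single_le_sum (fun i _ => sq_nonneg (z i)) (Finset.mem_univ k)) hn
  have hrng : ∀ k, -2 ≤ z k ∧ z k ≤ 2 := fun k => by have := hone k; constructor <;> nlinarith
  by_cases h2 : ∃ k, z k = 2 ∨ z k = -2
  · obtain ⟨i, hi⟩ := h2
    have hoth : ∀ k, k ≠ i → z k = 0 := fun k hk => by
      have h := Finset.sum_le_sum_of_subset_of_nonneg (Finset.subset_univ ({i, k} : Finset GolayPt))
        (fun j _ _ => sq_nonneg (z j))
      rw [Finset.sum_pair hk.symm] at h
      have : z i ^ 2 = 4 := by rcases hi with e | e <;> rw [e] <;> rfl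
      have : z k ^ 2 ≤ 0 := by omega
      exact pow_eq_zero_iff two_ne_zero |>.1 (le_antisymm this (sq_nonneg _))
    refine hE i ?_
    rcases hi with e | e
    · convert hx using 1
      refine Subtype.ext (funext fun k => ?_)
      show (Pi.single i 8 : GolayPt → ℤ) k = x.1 k
      rcases eq_or_ne k i with rfl | hk
      · simp [hz, e]
      · simp [hk, hz, hoth k hk]
    · convert neg_mem hx using 1
      refine Subtype.ext (funext fun k => ?_)
      show (Pi.single i 8 : GolayPt → ℤ) k = -x.1 k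
      rcases eq_or_ne k i with rfl | hk
      · simp [hz, e]
      · simp [hk, hz, hoth k hk]
  push Not at h2
  have hval : ∀ k, z k = 0 ∨ z k = 1 ∨ z k = -1 := fun k => by
    have := hrng k; have := h2 k; omega
  set T := Finset.univ.filter fun k => z k % 2 = 1 with hTdef
  have hT : ∀ k, k ∈ T ↔ z k % 2 = 1 := fun k => by simp [hTdef]
  have hTc : (T.card : ℤ) = ∑ k, z k ^ 2 := by
    rw [hTdef, Finset.natCast_card_filter]
    exact Finset.sum_congr rfl fun k _ => by rcases hval k with e | e | e <;> simp [e]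
  by_cases hne : ∃ p ∈ T, p ≠ pa ∧ p ≠ pb
  · exact F.no_fours F' hG hG' hxi hx hz hT (by omega) hne
  push Not at hne
  have hoff : ∀ k, k ≠ pa → k ≠ pb → z k = 0 := fun k ha hb => by
    rcases hval k with e | e | e
    · exact e
    all_goals exact absurd (hne k ((hT k).2 (by rw [e]; decide)) ha) hb
  have hab : pa ≠ pb := hG.1
  have hs2 : ∑ k, x.1 k = 4 * z pa + 4 * z pb := by
    rw [← Finset.sum_subset (Finset.subset_univ {pa, pb}) (fun k _ hk => ?_), Finset.sum_pair hab, hz, hz]
    simp only [Finset.mem_insert, Finset.mem_singleton, not_or] at hk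
    rw [hz, hoff k hk.1 hk.2, mul_zero]
  -- the remaining vectors
  have hshape : ∀ r : leechLattice, r.1 pa = x.1 pa → r.1 pb = x.1 pb →
      (∀ k, k ≠ pa → k ≠ pb → r.1 k = 0) → x = r := fun r ha hb ho => by
    refine Subtype.ext (funext fun k => ?_)
    rcases eq_or_ne k pa with rfl | hka
    · exact ha.symm
    rcases eq_or_ne k pb with rfl | hkb
    · exact hb.symm
    rw [ho k hka hkb, hz, hoff k hka hkb, mul_zero]
  have hP : ∀ k, k ≠ pa → k ≠ pb → (P pa pb).1 k = 0 := fun k ha hb => by
    show four pa pb k = 0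
    simp [four, ha, hb]
  have hN : ∀ k, k ≠ pa → k ≠ pb → (N hab).1 k = 0 := fun k ha hb => by
    show fourNeg pa pb k = 0
    simp [fourNeg, ha, hb]
  have p1 : (P pa pb).1 pa = 4 ∧ (P pa pb).1 pb = 4 ∧ (N hab).1 pa = 4 ∧ (N hab).1 pb = -4 := by
    show four pa pb pa = 4 ∧ four pa pb pb = 4 ∧ fourNeg pa pb pa = 4 ∧ fourNeg pa pb pb = -4
    decide +kernel
  have cases' : (z pa = 0 ∧ z pb = 0) ∨ (z pa = 1 ∧ z pb = 1) ∨ (z pa = -1 ∧ z pb = -1) ∨
      (z pa = 1 ∧ z pb = -1) ∨ (z pa = -1 ∧ z pb = 1) := by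
    rcases hval pa with e | e | e <;> rcases hval pb with e' | e' | e' <;> (rw [hs2, e, e'] at hsum) <;> omega
  rcases cases' with ⟨ha, hb⟩ | ⟨ha, hb⟩ | ⟨ha, hb⟩ | ⟨ha, hb⟩ | ⟨ha, hb⟩
  · refine h0 ⟨w, ?_⟩
    rw [hshape 0 (by simp [hz, ha]) (by simp [hz, hb]) (fun k _ _ => rfl)]
  · refine h1 ⟨w, ?_⟩
    rw [hshape (P pa pb) (by rw [p1.1, hz, ha]; rfl) (by rw [p1.2.1, hz, hb]; rfl) hP]
  · refine h1 ⟨w - P pa pb, ?_⟩
    rw [hshape (-P pa pb) (by rw [AddSubgroup.coe_neg, Pi.neg_apply, p1.1, hz, ha]; rfl)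
      (by rw [AddSubgroup.coe_neg, Pi.neg_apply, p1.2.1, hz, hb]; rfl)
      (fun k u v => by rw [AddSubgroup.coe_neg, Pi.neg_apply, hP k u v, neg_zero])]
    abel
  · refine hE pa ?_
    rw [← P_add_N hab, ← hshape (N hab) (by rw [p1.2.2.1, hz, ha]; rfl) (by rw [p1.2.2.2, hz, hb]; rfl) hN]
    exact add_mem hv hx
  · refine hE pa ?_
    have e := hshape (-N hab) (by rw [AddSubgroup.coe_neg, Pi.neg_apply, p1.2.2.1, hz, ha]; rfl)
      (by rw [AddSubgroup.coe_neg, Pi.neg_apply, p1.2.2.2, hz, hb]; rfl)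
      (fun k u v => by rw [AddSubgroup.coe_neg, Pi.neg_apply, hN k u v, neg_zero])
    rw [← P_add_N hab, show N hab = -x by rw [e, neg_neg]]
    exact add_mem hv (neg_mem hx)

/-! ### The automorphisms fixing the classes orthogonal to a pair -/

theorem perm_eq_one {σ : Equiv.Perm GolayPt} (hσ : σ ∈ M24) {a b : GolayPt} (hab : a ≠ b)
    (h : ∀ k, k ≠ a → k ≠ b → σ k = k) : σ = 1 := by
  by_contra hne
  have hfa : σ a ≠ a := fun e => hne (Equiv.ext fun k => by
    rcases eq_or_ne k a with rfl | hka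
    · exact e
    rcases eq_or_ne k b with rfl | hkb
    · by_contra hk
      exact hk (σ.injective (h (σ k) (fun e' => hab (σ.injective (e.trans e'.symm))) hk))
    exact h k hka hkb)
  have hsa : σ a = b := by
    by_contra hb
    exact hfa (σ.injective (h (σ a) hfa hb))
  obtain ⟨o, ho, hao, hbo⟩ : ∃ o ∈ octads, a ∈ o ∧ b ∉ o := by
    have hex : ∀ a b : GolayPt, a ≠ b → octList.any (fun o => o.testBit (idx a).val && !o.testBit (idx b).val) = true := by
      decide +kernel
    obtain ⟨o, ho, he⟩ := List.any_eq_true.1 (hex a b hab)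
    simp only [Bool.and_eq_true, Bool.not_eq_true'] at he
    have hlt := (mem_wtList.1 ho).2.1
    refine ⟨toSet o, mem_octads_iff.2 (by rw [mask_toSet hlt]; exact ho), mem_toSet.2 he.1, fun hb => ?_⟩
    rw [mem_toSet.1 hb] at he
    exact absurd he.2 (by simp)
  have he := octad_unique (smul_mem_octads hσ ho) ho (s := o.erase a)
    (by rw [Finset.card_erase_of_mem hao, card_of_mem_octads ho]; norm_num)
    (fun k hk => by
      obtain ⟨hka, hko⟩ := Finset.mem_erase.1 hk
      have : σ k = k := h k hka fun e => hbo (e ▸ hko)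
      exact Finset.mem_smul_finset.2 ⟨k, hko, this⟩)
    (Finset.erase_subset _ _)
  exact hbo (he ▸ Finset.mem_smul_finset.2 ⟨a, hao, hsa⟩)

theorem eq_or_neg_of_lines (g : Co0)
    (key : ∀ w : leechLattice, sqNorm w.1 = 32 → dotInt w.1 (P pa pb).1 = 0 → g.1 w = w ∨ g.1 w = -w) :
    g = 1 ∨ g = negOne := by
  have hab : pa ≠ pb := good_points.1.1
  have hout : ∀ i j, i ≠ j → i ≠ pa → i ≠ pb → j ≠ pa → j ≠ pb →
      (g.1 (P i j) = P i j ∨ g.1 (P i j) = -P i j) ∧ ∀ h : i ≠ j, g.1 (N h) = N h ∨ g.1 (N h) = -N h := by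
    intro i j hij hia hib hja hjb
    refine ⟨key _ (sqNorm_P hij) ?_, fun h => key _ ?_ ?_⟩
    · rw [show (P pa pb).1 = four pa pb from rfl, dot_four]
      show 4 * four i j pa + 4 * four i j pb = 0
      simp [four, hia.symm, hib.symm, hja.symm, hjb.symm]
    · show sqNorm (fourNeg i j) = 32
      rw [fourNeg, sqNorm_pair h]; rfl
    · rw [show (P pa pb).1 = four pa pb from rfl, dot_four]
      show 4 * fourNeg i j pa + 4 * fourNeg i j pb = 0
      simp [fourNeg, hia.symm, hib.symm, hja.symm, hjb.symm]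
  have h8 : ∀ i, i ≠ pa → i ≠ pb → ∃ s : ℤ, (s = 8 ∨ s = -8) ∧ (g.1 (eight i)).1 = Pi.single i s := by
    intro i hia hib
    have hex : ∀ i : GolayPt, ∃ j k : GolayPt, j ≠ k ∧ j ≠ i ∧ k ≠ i ∧ j ≠ pa ∧ j ≠ pb ∧ k ≠ pa ∧ k ≠ pb := by
      decide +kernel
    obtain ⟨j, k, hjk, hji, hki, hja, hjb, hka, hkb⟩ := hex i
    have one : ∀ j, j ≠ i → j ≠ pa → j ≠ pb → ∃ s : ℤ, (s = 8 ∨ s = -8) ∧
        ((g.1 (eight i)).1 = Pi.single i s ∨ (g.1 (eight i)).1 = Pi.single j s) := by
      intro j hji hja hjb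
      obtain ⟨h1, h2⟩ := hout i j hji.symm hia hib hja hjb
      have e := congrArg g.1 (P_add_N hji.symm)
      rw [g.2.1] at e
      rcases h1 with e1 | e1 <;> rcases h2 hji.symm with e2 | e2 <;> rw [e1, e2] at e <;> rw [← e]
      · refine ⟨8, Or.inl rfl, Or.inl (funext fun k => ?_)⟩
        show four i j k + fourNeg i j k = _
        simp only [four, fourNeg, Pi.add_apply, Pi.single_apply]; split_ifs <;> omega
      · refine ⟨8, Or.inl rfl, Or.inr (funext fun k => ?_)⟩
        show four i j k + -fourNeg i j k = _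
        simp only [four, fourNeg, Pi.add_apply, Pi.single_apply]; split_ifs <;> omega
      · refine ⟨-8, Or.inr rfl, Or.inr (funext fun k => ?_)⟩
        show -four i j k + fourNeg i j k = _
        simp only [four, fourNeg, Pi.add_apply, Pi.single_apply]; split_ifs <;> omega
      · refine ⟨-8, Or.inr rfl, Or.inl (funext fun k => ?_)⟩
        show -four i j k + -fourNeg i j k = _
        simp only [four, fourNeg, Pi.add_apply, Pi.single_apply]; split_ifs <;> omega
    obtain ⟨s, hs, e | e⟩ := one j hji hja hjb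
    · exact ⟨s, hs, e⟩
    obtain ⟨t, ht, e' | e'⟩ := one k hki hka hkb
    · exact ⟨t, ht, e'⟩
    have := congrFun (e.symm.trans e') j
    simp [hjk] at this
    omega
  have hcross : ∀ v : leechLattice, v.1 ∈ stdCross → (g.1 v).1 ∈ stdCross := by
    intro v hv
    obtain ⟨i, s, hs, e⟩ := hv
    have base : (g.1 (eight i)).1 ∈ stdCross := by
      by_cases hi : i ≠ pa ∧ i ≠ pb
      · obtain ⟨t, ht, e'⟩ := h8 i hi.1 hi.2
        exact ⟨i, t, by omega, e'⟩
      have hi' : i = pa ∨ i = pb := by tauto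
      set u := g.1 (eight i) with hu
      have hz : ∀ k, k ≠ pa → k ≠ pb → u.1 k = 0 := fun k hka hkb => by
        obtain ⟨t, ht, e'⟩ := h8 k hka hkb
        have hd := dot_smul g (eight i) (eight k)
        have hik : k ≠ i := by rintro rfl; tauto
        rw [← hu, e'] at hd
        simp [dotInt, Pi.single_apply, eight, hik] at hd
        rcases hd with h | h
        · exact h
        · omega
      obtain ⟨m, hm, hp, hs8, hc⟩ := mem_lattice.1 u.2
      obtain ⟨k, hka, hkb⟩ : ∃ k : GolayPt, k ≠ pa ∧ k ≠ pb := ⟨pc, by decide, by decide⟩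
      have hm0 : m = 0 := by have := hp k; rw [hz k hka hkb] at this; omega
      subst hm0
      replace hc : half u.1 ∈ golayCode := hc
      have hsup : support₂ (half u.1) ⊆ {pa, pb} := fun k hk => by
        by_contra hk'
        simp only [Finset.mem_insert, Finset.mem_singleton, not_or] at hk'
        rw [mem_support_half, hz k hk'.1 hk'.2] at hk
        omega
      have hempty : support₂ (half u.1) = ∅ := by
        rcases support_card_cases (mem_code_iff.1 hc) with h | h <;>
          [exact Finset.card_eq_zero.1 h; skip]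
        have := Finset.card_le_card hsup
        rw [Finset.card_pair hab] at this
        omega
      have h4 : ∀ k, u.1 k % 4 = 0 := fun k => by
        have := hp k
        have : k ∉ support₂ (half u.1) := by rw [hempty]; exact Finset.notMem_empty k
        rw [mem_support_half] at this
        omega
      have hn : sqNorm u.1 = 64 := by
        rw [hu, sqNorm_smul]; show sqNorm (Pi.single i 8 : GolayPt → ℤ) = 64; rw [sqNorm_single]; rfl
      have hn' : sqNorm u.1 = u.1 pa ^ 2 + u.1 pb ^ 2 := by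
        rw [sqNorm, ← Finset.sum_subset (Finset.subset_univ {pa, pb}) (fun k _ hk => ?_), Finset.sum_pair hab]
        simp only [Finset.mem_insert, Finset.mem_singleton, not_or] at hk
        rw [hz k hk.1 hk.2]; rfl
      obtain ⟨p, hp4⟩ : ∃ p, u.1 pa = 4 * p := ⟨u.1 pa / 4, by have := h4 pa; omega⟩
      obtain ⟨q, hq4⟩ : ∃ q, u.1 pb = 4 * q := ⟨u.1 pb / 4, by have := h4 pb; omega⟩
      have hpq : p ^ 2 + q ^ 2 = 4 := by
        rw [hn', hp4, hq4] at hn; nlinarith
      have hb : -2 ≤ p ∧ p ≤ 2 ∧ -2 ≤ q ∧ q ≤ 2 := by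
        refine ⟨?_, ?_, ?_, ?_⟩ <;> nlinarith
      have shape : ∀ k t, u.1 k = t → (∀ l, l ≠ k → u.1 l = 0) → u.1 = Pi.single k t := fun k t h1 h2 =>
        funext fun l => by rcases eq_or_ne l k with rfl | hl <;> simp_all
      have hboth : (q = 0 ∧ (p = 2 ∨ p = -2)) ∨ (p = 0 ∧ (q = 2 ∨ q = -2)) := by
        obtain ⟨b1, b2, b3, b4⟩ := hb
        interval_cases p <;> interval_cases q <;> simp at hpq <;> omega
      rcases hboth with ⟨h0, h2⟩ | ⟨h0, h2⟩
      · exact ⟨pa, 4 * p, by omega, shape pa _ hp4 fun l hl => by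
          rcases eq_or_ne l pb with rfl | hlb
          · rw [hq4, h0, mul_zero]
          · exact hz l hl hlb⟩
      · exact ⟨pb, 4 * q, by omega, shape pb _ hq4 fun l hl => by
          rcases eq_or_ne l pa with rfl | hla
          · rw [hp4, h0, mul_zero]
          · exact hz l hla hl⟩
    rcases hs with rfl | rfl
    · rwa [show v = eight i from Subtype.ext e]
    · have hv' : v = -eight i := Subtype.ext (by rw [e]; show _ = -(Pi.single i 8 : GolayPt → ℤ); rw [← Pi.single_neg])
      obtain ⟨j, t, ht, e'⟩ := base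
      refine ⟨j, -t, by omega, ?_⟩
      rw [hv', show g.1 (-eight i) = -g.1 (eight i) from map_neg (hom g) _, AddSubgroup.coe_neg, e', ← Pi.single_neg]
  obtain ⟨σ, hσ, c, hc, rfl⟩ := stab_mono g hcross
  have hs : σ = 1 := perm_eq_one hσ hab fun k hka hkb => by
    obtain ⟨t, ht, e⟩ := h8 k hka hkb
    have := congrFun e (σ k)
    rw [mono_apply] at this
    by_contra hk
    simp [signedPerm, eight, Pi.single_apply, hk] at this
    split_ifs at this <;> omega
  subst hs
  have hor : ∀ o ∈ octads, pa ∉ o → pb ∉ o → (c ∩ o).card = 0 ∨ (c ∩ o).card = 8 := by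
    intro o ho hao hbo
    rcases key ⟨two o, two_mem ho.1⟩ (by show sqNorm (two o) = 32; rw [sqNorm_two, card_of_mem_octads ho]; rfl)
      (by rw [show (P pa pb).1 = four pa pb from rfl, dot_four]; simp [two, hao, hbo]) with e | e
    · refine Or.inl (Finset.card_eq_zero.2 (Finset.eq_empty_of_forall_notMem fun k hk => ?_))
      have := congrFun (congrArg Subtype.val e) k
      rw [mono_apply] at this
      simp [signedPerm, perm_one_symm, two, Finset.mem_inter.1 hk] at this
    · refine Or.inr (Eq.trans (congrArg Finset.card ?_) (card_of_mem_octads ho))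
      refine Finset.inter_eq_right.2 fun k hk => ?_
      by_contra hkc
      have := congrFun (congrArg Subtype.val e) k
      rw [mono_apply] at this
      simp [signedPerm, perm_one_symm, two, hk, hkc] at this
  have hmem : mask c ∈ codeList := mem_codeList.2 ⟨mem_supports_iff.1 hc, mask_lt c⟩
  have hs := List.all_eq_true.1 flips_ok _ hmem
  simp only [Bool.or_eq_true, beq_iff_eq, List.any_eq_true, Bool.and_eq_true, bne_iff_ne, ne_eq] at hs
  rcases hs with (e | e) | ⟨o, ho, ho3, hp0, hp8⟩
  · refine Or.inl ?_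
    have e' : c = ∅ := mask_injective (e.trans mask_empty.symm)
    subst e'
    exact Subtype.ext (Equiv.ext fun v => Subtype.ext (funext fun k => by simp [mono_apply, signedPerm, perm_one_symm]))
  · refine Or.inr ?_
    have e' : c = Finset.univ := mask_injective (e.trans mask_univ.symm)
    subst e'
    rfl
  · exfalso
    have hlt := (mem_wtList.1 ho).2.1
    have hnot : pa ∉ toSet o ∧ pb ∉ toSet o := by
      have h0 : o.testBit 0 = false ∧ o.testBit 1 = false := by
        have a : (o &&& 3).testBit 0 = false := by rw [ho3]; rfl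
        have b : (o &&& 3).testBit 1 = false := by rw [ho3]; rfl
        rw [Nat.testBit_and, show Nat.testBit 3 0 = true from rfl, Bool.and_true] at a
        rw [Nat.testBit_and, show Nat.testBit 3 1 = true from rfl, Bool.and_true] at b
        exact ⟨a, b⟩
      constructor <;> intro h <;> have h' := mem_toSet.1 h
      · rw [show (idx pa).val = 0 from rfl] at h'; rw [h'] at h0; simp at h0
      · rw [show (idx pb).val = 1 from rfl] at h'; rw [h'] at h0; simp at h0
    have := hor _ (mem_octads_iff.2 (by rw [mask_toSet hlt]; exact ho)) hnot.1 hnot.2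
    rw [← popc_mask, mask_inter, mask_toSet hlt] at this
    omega

theorem eq_or_neg_of_stab (g : Co0)
    (hg : ∀ w : leechLattice, (16 : ℤ) ∣ dotInt w.1 (P pa pb).1 → Eqv (g.1 w) w ∨ Eqv (g.1 w) (w + P pa pb)) :
    g = 1 ∨ g = negOne := by
  have hab : pa ≠ pb := good_points.1.1
  have key : ∀ w : leechLattice, sqNorm w.1 = 32 → dotInt w.1 (P pa pb).1 = 0 → g.1 w = w ∨ g.1 w = -w := by
    intro w hw hd
    have h32 : sqNorm (g.1 w).1 = 32 := (sqNorm_smul g w).trans hw
    rcases hg w (by rw [hd]; exact dvd_zero _) with h | h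
    · rcases congr_cls (g.1 w).2 w.2 h.cls_eq (by omega) (by omega) with e | e | e
      · exact Or.inl (Subtype.ext e)
      · exact Or.inr (Subtype.ext e)
      · omega
    · have h64 : sqNorm (w + P pa pb).1 = 64 := by
        rw [AddSubgroup.coe_add, sqNorm_add, hw, sqNorm_P hab, hd]; rfl
      rcases congr_cls (g.1 w).2 (w + P pa pb).2 h.cls_eq (by omega) (by omega) with e | e | e
      · rw [e, h64] at h32; omega
      · rw [e, sqNorm_neg, h64] at h32; omega
      · omega
  exact eq_or_neg_of_lines g key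

end CfsgLib.MonsterPlus
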