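/-
The stabiliser of the class of a frame: normal two-subgroups.
-/
import Cfsg.Agent.MonsterPlus.PairClass
import Cfsg.Agent.Leech.Co1
import Cfsg.Agent.Golay.DodStab

set_option autoImplicit false

namespace CfsgLib.MonsterPlus

open Cfsg CfsgLib.Golay CfsgLib.Leech
open scoped Pointwise

theorem cross_eight : cross (eight none).1 = stdCross := by
  have h0 := cross_mem (eight_mem_cross none)
  have hsub : stdCross ⊆ cross (eight none).1 := fun y hy =>
    ⟨(cross_mem hy).1, (cross_mem hy).2.trans h0.2.symm, cross_congr (eight_mem_cross none) hy⟩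
  have hfin : (cross (eight none).1).Finite := Set.finite_of_ncard_ne_zero (by
    rw [frames_and_short.1 _ h0.1 h0.2]; norm_num)
  refine (Set.eq_of_subset_of_ncard_le hsub ?_ hfin).symm
  rw [frames_and_short.1 _ h0.1 h0.2, ← ncard_cross, ← Set.ncard_image_of_injective _ Subtype.val_injective]
  refine le_of_eq (congrArg Set.ncard (Set.ext fun x => ?_))
  exact ⟨fun ⟨v, hv, e⟩ => e ▸ hv, fun hx => ⟨⟨x, (cross_mem hx).1⟩, hx, rfl⟩⟩

/-- The automorphisms fixing the class of a coordinate vector. -/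
theorem fix_class_iff {g : Co0} : Eqv (g.1 (eight none)) (eight none) ↔ g ∈ crossStab := by
  constructor
  · rintro ⟨u, hu⟩
    refine mem_crossStab_of_eight (i := none) ?_
    rw [← cross_eight]
    refine ⟨(g • eight none).2, g.2.2 _, ⟨-u.1, neg_mem u.2, ?_⟩⟩
    rw [show (g • eight none : leechLattice) = eight none + (u + u) from hu]
    simp [two_smul]
  · intro hg
    obtain ⟨w, hw, e⟩ := cross_congr (hg _ (eight_mem_cross none)) (eight_mem_cross none)
    refine ⟨⟨w, hw⟩, Subtype.ext ?_⟩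
    show (g • eight none).1 = (eight none).1 + (w + w)
    rw [← two_smul ℕ w, ← e]
    abel

theorem card_signChanges : Nat.card signChanges = 4096 := by
  let f : supports (golayCode : Set (GolayPt → ZMod 2)) → signChanges := fun c => ⟨diag c.2, diag_mem c.2⟩
  have hf : Function.Bijective f := by
    refine ⟨fun c d h => Subtype.ext (mono_injective _ _ c.2 d.2 (congrArg Subtype.val h)).2, ?_⟩
    rintro ⟨g, c, hc, rfl⟩
    exact ⟨⟨c, hc⟩, rfl⟩
  rw [← Nat.card_congr (Equiv.ofBijective f hf), supports, Nat.card_coe_set_eq,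
    Set.ncard_image_of_injective _ support_injective, ← Nat.card_coe_set_eq, SetLike.coe_sort_coe, card_code]

theorem pow_mono {σ : Equiv.Perm GolayPt} (hσ : σ ∈ M24) {c : Finset GolayPt} (hc : IsCodeSet c) (n : ℕ) :
    ∃ (d : Finset GolayPt) (hd : IsCodeSet d), mono hσ hc ^ n = mono (pow_mem hσ n) hd := by
  induction n with
  | zero => exact ⟨∅, empty_mem, by rw [pow_zero, ← mono_one]; exact mono_congr (pow_zero σ).symm rfl⟩
  | succ n ih =>
    obtain ⟨d, hd, e⟩ := ih
    refine ⟨_, symm_mem_code hd (smul_mem_code (pow_mem hσ n) hc), ?_⟩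
    rw [pow_succ, e, mono_mul]
    exact mono_congr (pow_succ σ n).symm rfl

theorem mono_eq_one {σ : Equiv.Perm GolayPt} {hσ : σ ∈ M24} {c : Finset GolayPt} {hc : IsCodeSet c}
    (h : mono hσ hc = 1) : σ = 1 ∧ c = ∅ := mono_injective _ _ hc empty_mem (h.trans mono_one.symm)

/-- A normal two-subgroup of the monomial group outside the centre is the group of sign changes. -/
theorem eq_signChanges {M : Subgroup Co0} (hle : M ≤ crossStab) (hn : ∀ g ∈ crossStab, ∀ x ∈ M, g * x * g⁻¹ ∈ M)
    (hneg : negOne ∈ M) (h2 : IsPGroup 2 M) (hne : ∃ x ∈ M, x ∉ Subgroup.center Co0) : M = signChanges := by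
  classical
  have hperm : ∀ x ∈ M, x ∈ signChanges := by
    intro x hx
    obtain ⟨σ, hσ, c, hc, rfl⟩ := exists_mono (hle hx)
    by_cases hσ1 : σ = 1
    · subst hσ1; exact ⟨c, hc, rfl⟩
    exfalso
    have htop := permPart_top hn hx hσ1
    haveI : Fact (Nat.Prime 3) := ⟨Nat.prime_three⟩
    obtain ⟨τ, hτ3⟩ := exists_prime_orderOf_dvd_card' (G := M24) 3 (by rw [card_M24]; norm_num)
    obtain ⟨d, hd, hm⟩ : τ ∈ permPart M := htop ▸ Subgroup.mem_top _
    obtain ⟨k, hk⟩ := h2 ⟨_, hm⟩
    obtain ⟨d', hd', e⟩ := pow_mono τ.2 hd (2 ^ k)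
    have h1 := (mono_eq_one (e.symm.trans (congrArg Subtype.val hk))).1
    have hdvd : orderOf τ ∣ 2 ^ k := orderOf_dvd_of_pow_eq_one (Subtype.ext h1)
    rw [hτ3] at hdvd
    have := Nat.Prime.dvd_of_dvd_pow Nat.prime_three hdvd
    omega
  refine le_antisymm hperm ?_
  obtain ⟨x, hx, hxc⟩ := hne
  obtain ⟨c, hc, rfl⟩ := hperm x hx
  have hconj : ∀ {σ : Equiv.Perm GolayPt} (hσ : σ ∈ M24) {d : Finset GolayPt} (hd : IsCodeSet d), diag hd ∈ M →
      diag (smul_mem_code hσ hd) ∈ M := fun {σ} hσ {d} hd hm => by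
    have := hn _ (mono_mem_crossStab hσ empty_mem) _ hm
    rwa [conj_diag] at this
  have hsym : ∀ {d d' : Finset GolayPt} (hd : IsCodeSet d) (hd' : IsCodeSet d'), diag hd ∈ M → diag hd' ∈ M →
      diag (symm_mem_code hd hd') ∈ M := fun hd hd' a b => by
    have := mul_mem a b
    rwa [diag_mul] at this
  have hset : ∀ {d d' : Finset GolayPt} (hd : IsCodeSet d) (hd' : IsCodeSet d'), d = d' → diag hd ∈ M → diag hd' ∈ M :=
    fun hd hd' e h => by subst e; exact h
  obtain ⟨o, ho, hom⟩ : ∃ (o : Finset GolayPt) (ho : o ∈ octads), diag ho.1 ∈ M := by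
    have hcard := support_card_cases (mem_supports_iff.1 hc)
    have h0 : c.card ≠ 0 := fun e => hxc (by
      rw [show diag hc = 1 from (mono_congr rfl (Finset.card_eq_zero.1 e)).trans mono_one]
      exact one_mem _)
    have h24 : c.card ≠ 24 := fun e => hxc (by
      rw [show diag hc = negOne from mono_congr rfl (Finset.eq_univ_of_card _ (e.trans card_pt.symm))]
      exact negOne_central)
    rcases (by omega : c.card = 8 ∨ c.card = 12 ∨ c.card = 16) with e | e | e
    · exact ⟨c, ⟨hc, e⟩, hx⟩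
    · have hD : toSet 28637 ∈ dodecads ∧ (symmDiff DodStab.D (toSet 28637)).card = 8 := by
        refine ⟨?_, ?_⟩
        · rw [mem_dodecads_iff, mask_toSet (by decide +kernel), mem_wtList]
          refine ⟨?_, ?_, ?_⟩ <;> decide +kernel
        · decide +kernel
      obtain ⟨g, hg, eg⟩ := DodStab.exists_map_dodecad DodStab.D_mem (d' := c) ⟨hc, e⟩
      obtain ⟨σ, hσ, eσ⟩ := DodStab.exists_map_dodecad DodStab.D_mem hD.1
      have hτ : g * σ * g⁻¹ ∈ M24 := mul_mem (mul_mem hg hσ) (inv_mem hg)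
      refine ⟨_, ⟨symm_mem_code hc (smul_mem_code hτ hc), ?_⟩, hsym hc _ hx (hconj hτ hc hx)⟩
      rw [← eg, ← mul_smul, inv_mul_cancel_right, mul_smul, eσ, ← Finset.smul_finset_symmDiff,
        Finset.card_smul_finset]
      exact hD.2
    · refine ⟨_, ⟨symm_mem_code univ_mem hc, ?_⟩, hsym univ_mem hc hneg hx⟩
      rw [show symmDiff (Finset.univ : Finset GolayPt) c = cᶜ from top_symmDiff c, Finset.card_compl, card_pt, e]
  refine signChanges_le fun o' ho' => ?_
  obtain ⟨τ, hτ, eτ⟩ := exists_map_octad ho ho'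
  exact hset _ _ eτ (hconj hτ ho.1 hom)

end CfsgLib.MonsterPlus
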