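/-
The stabiliser of a short vector has no normal two-subgroup; pairs in singular sets of a frame.
-/
import Cfsg.Agent.MonsterPlus.CrossClass
import Cfsg.Agent.Leech.Pairs
import Cfsg.Prelude.Def_MonsterType

set_option autoImplicit false

namespace CfsgLib.MonsterPlus

open Cfsg CfsgLib.Golay CfsgLib.Leech
open scoped Pointwise

theorem sqNorm_leechU : sqNorm Spor.leechU.1 = 32 := by
  show sqNorm Spor.vecU = 32
  decide +kernel

theorem smul_eqv {g : Co0} {v w : leechLattice} (h : Eqv v w) : Eqv (g • v) (g • w) := by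
  obtain ⟨u, rfl⟩ := h
  exact ⟨g • u, by rw [smul_add', smul_add']⟩

theorem fix_short {g : Co0} {v : leechLattice} (hv : sqNorm v.1 = 32) (h : Eqv (g • v) v) :
    g • v = v ∨ g • v = -v := by
  rcases congr_cls (g • v).2 v.2 h.cls_eq (by rw [norm_smul, hv]; norm_num) (by omega) with e | e | e
  · exact Or.inl (Subtype.ext e)
  · exact Or.inr (Subtype.ext e)
  · omega

theorem eq_one_of_lines {v : leechLattice} (hv : sqNorm v.1 = 32) (g : Co0) (hgv : g • v = v)
    (key : ∀ w : leechLattice, sqNorm w.1 = 32 → dotInt w.1 v.1 = 0 → g • w = w ∨ g • w = -w) : g = 1 := by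
  obtain ⟨γ, hγ⟩ := transitive32 (v := P pa pb) (w := v) (sqNorm_P good_points.1.1) hv
  have h : γ⁻¹ * g * γ = 1 ∨ γ⁻¹ * g * γ = negOne := by
    refine eq_or_neg_of_lines _ fun w hw hd => ?_
    show (γ⁻¹ * g * γ) • w = w ∨ (γ⁻¹ * g * γ) • w = -w
    rw [mul_smul, mul_smul, inv_smul_eq_iff, inv_smul_eq_iff, smul_neg']
    exact key _ ((norm_smul γ w).trans hw) (by rw [← hγ, Leech.dot_smul, hd])
  rcases h with h | h
  · rwa [mul_assoc, inv_mul_eq_iff_eq_mul, mul_one, mul_eq_right] at h
  · exfalso
    rw [mul_assoc, inv_mul_eq_iff_eq_mul, Subgroup.mem_center_iff.1 negOne_central γ, mul_left_inj] at h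
    rw [h, show negOne • v = -v from negOne_apply v] at hgv
    have h0 : sqNorm v.1 = 0 := by
      have : v.1 = 0 := funext fun i => by
        have := congrFun (congrArg Subtype.val hgv) i
        simp at this
        show v.1 i = 0
        omega
      rw [this]; simp [sqNorm]
    omega

theorem eq_one_of_trivial {v : leechLattice} (hv : sqNorm v.1 = 32) (g : Co0) (hgv : g • v = v)
    (hg : ∀ w : leechLattice, (16 : ℤ) ∣ dotInt w.1 v.1 → Eqv (g • w) w ∨ Eqv (g • w) (w + v)) : g = 1 := by
  refine eq_one_of_lines hv g hgv fun w hw hd => ?_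
  have h32 : sqNorm (g • w).1 = 32 := (norm_smul g w).trans hw
  rcases hg w (by rw [hd]; exact dvd_zero _) with h | h
  · exact fix_short hw h
  · have h64 : sqNorm (w + v).1 = 64 := by rw [AddSubgroup.coe_add, sqNorm_add, hw, hv, hd]; rfl
    rcases congr_cls (g • w).2 (w + v).2 h.cls_eq (by omega) (by omega) with e | e | e
    · rw [e, h64] at h32; omega
    · rw [e, Leech.sqNorm_neg, h64] at h32; omega
    · omega

theorem le_of_odd_index {S : Type*} [Group S] [Finite S] {N H : Subgroup S} [N.Normal] (hN : IsPGroup 2 N)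
    (hodd : Odd H.index) : N ≤ H := by
  haveI : Fact (Nat.Prime 2) := ⟨Nat.prime_two⟩
  have hcard : ¬ 2 ∣ Nat.card (S ⧸ H) := fun h => Nat.not_even_iff_odd.2 hodd (even_iff_two_dvd.2 h)
  obtain ⟨q, hq⟩ := hN.nonempty_fixed_point_of_prime_not_dvd_card (S ⧸ H) hcard
  obtain ⟨g, rfl⟩ := QuotientGroup.mk_surjective q
  intro n hn
  have h1 := MulAction.mem_fixedPoints.1 hq ⟨g * n * g⁻¹, Subgroup.Normal.conj_mem inferInstance n hn g⟩
  have h2 : (QuotientGroup.mk (g * n * g⁻¹ * g) : S ⧸ H) = QuotientGroup.mk g := h1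
  rw [QuotientGroup.eq, inv_mul_cancel_right, mul_inv_rev, inv_mul_cancel_right] at h2
  exact inv_mem_iff.1 h2

/-- The stabiliser of a short vector has no nontrivial normal two-subgroup. -/
theorem two_normal_bot {v : leechLattice} (hv : sqNorm v.1 = 32) {M : Subgroup Co0}
    (hle : M ≤ MulAction.stabilizer Co0 v) (hn : ∀ g ∈ MulAction.stabilizer Co0 v, ∀ x ∈ M, g * x * g⁻¹ ∈ M)
    (h2 : IsPGroup 2 M) : M = ⊥ := by
  classical
  haveI : Finite Co0 := Nat.finite_of_card_ne_zero (by rw [card_Co0]; norm_num)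
  set S := MulAction.stabilizer Co0 v with hS
  refine (Subgroup.eq_bot_iff_forall _).2 fun x hx => eq_one_of_lines hv x (hle hx) fun w hw hd => ?_
  have hd' : dotInt v.1 w.1 = 0 := (dotInt_comm' _ _).trans hd
  let L : Subgroup Co0 := { carrier := {g | g ∈ S ∧ (g • w = w ∨ g • w = -w)}
                            one_mem' := ⟨one_mem S, Or.inl (one_smul _ w)⟩
                            mul_mem' := by
                              rintro a b ⟨ha, ha'⟩ ⟨hb, hb'⟩
                              refine ⟨mul_mem ha hb, ?_⟩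
                              rcases ha' with e | e <;> rcases hb' with e' | e' <;>
                                simp [mul_smul, e, e', smul_neg']
                            inv_mem' := by
                              rintro a ⟨ha, ha'⟩
                              refine ⟨inv_mem ha, ?_⟩
                              rcases ha' with e | e
                              · exact Or.inl (inv_smul_eq_iff.2 e.symm)
                              · exact Or.inr (inv_smul_eq_iff.2 (by rw [smul_neg', e, neg_neg])) }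
  have hLS : L ≤ S := fun g hg => hg.1
  have horb : MulAction.orbit S w = {y : leechLattice | y.1 ∈ dotSet v.1 0} := by
    ext y
    constructor
    · rintro ⟨⟨g, hg⟩, rfl⟩
      have e1 : g • v = v := hg
      refine ⟨(g • w).2, (norm_smul g w).trans hw, ?_⟩
      show dotInt v.1 (g • w).1 = 0
      rw [← e1, Leech.dot_smul, hd']
    · rintro ⟨-, hy, hyd⟩
      obtain ⟨g, h1, h2⟩ := transitive_orth hv hw hd' hv hy hyd
      exact ⟨⟨g, h1⟩, h2⟩
  have hN : {y : leechLattice | y.1 ∈ dotSet v.1 0}.ncard = 93150 := by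
    rw [← Set.ncard_image_of_injective _ Subtype.val_injective]
    refine (congrArg Set.ncard (Set.ext fun y => ?_)).trans (orth_count v.2 hv)
    exact ⟨fun ⟨a, ha, e⟩ => e ▸ ha, fun hy => ⟨⟨y, hy.1⟩, hy, rfl⟩⟩
  obtain ⟨g0, hg0, hg0'⟩ := transitive_orth (w' := -w) hv hw hd' hv
    (by rw [AddSubgroup.coe_neg, Leech.sqNorm_neg, hw]) (by
      rw [AddSubgroup.coe_neg, ← neg_zero, ← hd']
      simp [dotInt])
  have horbL : MulAction.orbit L w = {w, -w} := by
    ext y
    constructor
    · rintro ⟨⟨g, hg⟩, rfl⟩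
      rcases hg.2 with e | e
      · exact Or.inl e
      · exact Or.inr e
    · rintro (rfl | rfl)
      · exact ⟨1, one_smul _ _⟩
      · exact ⟨⟨g0, hg0, Or.inr hg0'⟩, hg0'⟩
  have hwne : w ≠ -w := fun e => by
    have h0 : w.1 = 0 := funext fun i => by
      have := congrFun (congrArg Subtype.val e) i
      simp at this
      show w.1 i = 0
      omega
    rw [h0] at hw
    simp [sqNorm] at hw
  have cS := card_eq_mul_of_orbit S w _ horb
  have cL := card_eq_mul_of_orbit L w _ horbL
  rw [hN] at cS
  rw [Set.ncard_pair hwne] at cL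
  have heq : L ⊓ MulAction.stabilizer Co0 w = S ⊓ MulAction.stabilizer Co0 w := by
    ext g
    exact ⟨fun h => ⟨hLS h.1, h.2⟩, fun h => ⟨⟨h.1, Or.inl h.2⟩, h.2⟩⟩
  rw [heq] at cL
  have hidx := Subgroup.card_mul_index (L.subgroupOf S)
  rw [Nat.card_congr (Subgroup.subgroupOfEquivOfLe hLS).toEquiv, cS, cL] at hidx
  have hpos : 0 < Nat.card ↥(S ⊓ MulAction.stabilizer Co0 w) := Nat.card_pos
  have hidx' : (L.subgroupOf S).index = 46575 := by
    refine Nat.eq_of_mul_eq_mul_left (Nat.mul_pos two_pos hpos) ?_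
    rw [hidx]
    ring
  haveI : (M.subgroupOf S).Normal := ⟨fun a ha g => hn g.1 g.2 a.1 ha⟩
  have hp : IsPGroup 2 (M.subgroupOf S) := h2.comap_of_injective _ (Subgroup.subtype_injective _)
  have hxL : (⟨x, hle hx⟩ : S) ∈ L.subgroupOf S :=
    le_of_odd_index hp (H := L.subgroupOf S) (by rw [hidx']; decide) (show (⟨x, hle hx⟩ : S) ∈ M.subgroupOf S from hx)
  exact (hxL : x ∈ L).2

/-- A singular set kept by the monomial group holds the pairs. -/
theorem pair_mem_of_frame {W : AddSubgroup leechLattice} (hdbl : ∀ u, u + u ∈ W)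
    (hsing : ∀ y ∈ W, (32 : ℤ) ∣ sqNorm y.1) (hstab : ∀ g ∈ crossStab, ∀ y ∈ W, g.1 y ∈ W)
    (hE : eight none ∈ W) {y : leechLattice} (hy : y ∈ W) (h0 : ¬ Eqv y 0) (h1 : ¬ Eqv y (eight none)) :
    P pa pb ∈ W := by
  classical
  have F : Family pa pb W := ⟨hdbl, hsing, fun g hg _ => hstab g hg⟩
  obtain ⟨hG, -⟩ := good_points
  obtain ⟨x, hxn, w, rfl⟩ := eqv_short y
  have hx : x ∈ W := by simpa using sub_mem hy (hdbl w)
  have hE' : ∀ j, eight j ∈ W := fun j => by
    rcases eq_or_ne j none with rfl | hj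
    · exact hE
    have : eight j = eight none + (N hj + N hj) := Subtype.ext (funext fun k => by
      show (Pi.single j 8 : GolayPt → ℤ) k =
        (Pi.single none 8 : GolayPt → ℤ) k + (fourNeg j none k + fourNeg j none k)
      simp only [fourNeg, Pi.add_apply, Pi.single_apply]
      split_ifs <;> omega)
    rw [this]
    exact add_mem hE (hdbl _)
  have h4 : ∀ k, x.1 k % 4 = 0 := by
    have hev := F.even hG hx
    rcases F.half_const hG hx with h | h
    · intro k
      have := hev k
      have hk : ¬ (x.1 k / 2) % 2 = 1 := fun hc => (cast2_iff _).2 hc (congrFun h k)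
      omega
    · exfalso
      have hsq : ∑ _k : GolayPt, (4 : ℤ) ≤ sqNorm x.1 := Finset.sum_le_sum fun k _ => by
        have := hev k
        have hc : half x.1 k ≠ 0 := by rw [congrFun h k]; exact one_ne_zero
        have : x.1 k / 2 % 2 = 1 := (cast2_iff _).1 hc
        obtain ⟨s, hs⟩ : ∃ s, x.1 k = 2 * s := ⟨x.1 k / 2, by omega⟩
        have := one_le_sq_of_ne_zero (a := s) (by omega)
        rw [hs, mul_pow]; omega
      rw [Finset.sum_const, Finset.card_univ, card_pt] at hsq
      simp at hsq
      omega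
  -- from a vector with two fours
  have htwo : ∀ (x : leechLattice) (i j : GolayPt) (s t : ℤ), x ∈ W → i ≠ j → (s = 4 ∨ s = -4) →
      (t = 4 ∨ t = -4) → x.1 = Pi.single i s + Pi.single j t → P pa pb ∈ W := by
    intro x i j s t hx hij hs ht e
    have hP : P i j ∈ W := by
      have e4 : x = P i j ∨ x = -P i j ∨ x = N hij ∨ x = -N hij := by
        rcases hs with rfl | rfl <;> rcases ht with rfl | rfl
        · exact Or.inl (Subtype.ext e)
        · exact Or.inr (Or.inr (Or.inl (Subtype.ext e)))
        · refine Or.inr (Or.inr (Or.inr (Subtype.ext (funext fun k => ?_))))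
          rw [e, AddSubgroup.coe_neg, Pi.neg_apply]
          show _ = -fourNeg i j k
          simp only [fourNeg, Pi.add_apply, Pi.single_apply]; split_ifs <;> omega
        · refine Or.inr (Or.inl (Subtype.ext (funext fun k => ?_)))
          rw [e, AddSubgroup.coe_neg, Pi.neg_apply]
          show _ = -four i j k
          simp only [four, Pi.add_apply, Pi.single_apply]; split_ifs <;> omega
      rcases e4 with rfl | rfl | rfl | rfl
      · exact hx
      · exact neg_mem_iff.1 hx
      · have := sub_mem (hE' i) hx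
        rwa [← P_add_N hij, add_sub_cancel_right] at this
      · have := sub_mem (hE' i) (neg_mem_iff.1 hx)
        rwa [← P_add_N hij, add_sub_cancel_right] at this
    obtain ⟨σ, hσ, he⟩ := exists_map_tuple (n := 2) (by omega) ![i, j] ![pa, pb]
      (by intro a b h; fin_cases a <;> fin_cases b <;> simp_all)
      (by intro a b h; fin_cases a <;> fin_cases b <;> simp_all [good_points.1.1, good_points.1.1.symm])
    have := hstab _ (mono_mem_crossStab hσ empty_mem) _ hP
    rwa [perm_P, show σ i = pa from he 0, show σ j = pb from he 1] at this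
  set T := Finset.univ.filter fun k => x.1 k ≠ 0 with hTdef
  have hoff : ∀ k, k ∉ T → x.1 k = 0 := fun k hk => by simpa [hTdef] using hk
  have hsum : ∑ k ∈ T, x.1 k ^ 2 ≤ 64 := by
    refine le_trans (Finset.sum_le_sum_of_subset_of_nonneg (Finset.subset_univ T) fun k _ _ => sq_nonneg _) hxn
  have h16 : ∀ k ∈ T, 16 ≤ x.1 k ^ 2 := fun k hk => by
    obtain ⟨q, hq⟩ : ∃ q, x.1 k = 4 * q := ⟨x.1 k / 4, by have := h4 k; omega⟩
    have hne : x.1 k ≠ 0 := by simpa [hTdef] using hk
    have := one_le_sq_of_ne_zero (a := q) (by omega)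
    rw [hq, mul_pow]; omega
  have hcard : T.card ≤ 4 := by
    have := (Finset.sum_le_sum h16).trans hsum
    rw [Finset.sum_const, nsmul_eq_mul] at this
    omega
  by_cases hbig : ∃ i, x.1 i ≠ 0 ∧ x.1 i ≠ 4 ∧ x.1 i ≠ -4
  · -- a single eight
    exfalso
    obtain ⟨i, hi0, hi4, hi4'⟩ := hbig
    obtain ⟨q, hq⟩ : ∃ q, x.1 i = 4 * q := ⟨x.1 i / 4, by have := h4 i; omega⟩
    have hiT : i ∈ T := by simp [hTdef, hi0]
    have h64 : 64 ≤ x.1 i ^ 2 := by
      have h2 : 2 ≤ q ∨ q ≤ -2 := by omega
      rcases h2 with h2 | h2 <;> rw [hq] <;> nlinarith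
    have hT1 : ∀ k, k ≠ i → x.1 k = 0 := fun k hk => by
      by_contra hk0
      have hkT : k ∈ T := by simp [hTdef, hk0]
      have := Finset.sum_le_sum_of_subset_of_nonneg (s := {i, k}) (t := T)
        (by simp [Finset.insert_subset_iff, hiT, hkT]) (fun j _ _ => sq_nonneg (x.1 j))
      rw [Finset.sum_pair hk.symm] at this
      have := h16 k hkT
      omega
    have hle : x.1 i ^ 2 ≤ 64 :=
      le_trans (Finset.single_le_sum (fun j _ => sq_nonneg (x.1 j)) hiT) hsum
    have hq2 : q = 2 ∨ q = -2 := by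
      have : q ^ 2 = 4 := by rw [hq, mul_pow] at hle h64; omega
      exact sq_eq_sq_iff_eq_or_eq_neg.1 (show q ^ 2 = 2 ^ 2 by rw [this]; rfl)
    have hx8 : x = eight i ∨ x = -eight i := by
      rcases hq2 with rfl | rfl
      · exact Or.inl (Subtype.ext (funext fun k => by
          rcases eq_or_ne k i with rfl | hk
          · simp [hq, eight]
          · simp [hT1 k hk, eight, hk]))
      · exact Or.inr (Subtype.ext (funext fun k => by
          rcases eq_or_ne k i with rfl | hk
          · simp [hq, eight]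
          · simp [hT1 k hk, eight, hk]))
    obtain ⟨u, hu⟩ : Eqv (eight i) (eight none) := by
      rcases eq_or_ne i none with rfl | hi
      · exact ⟨0, by simp⟩
      refine ⟨N hi, Subtype.ext (funext fun k => ?_)⟩
      show (Pi.single i 8 : GolayPt → ℤ) k =
        (Pi.single none 8 : GolayPt → ℤ) k + (fourNeg i none k + fourNeg i none k)
      simp only [fourNeg, Pi.add_apply, Pi.single_apply]
      split_ifs <;> omega
    rcases hx8 with rfl | rfl
    · exact h1 ⟨w + u, by rw [hu]; abel⟩
    · refine h1 ⟨w + u - eight i, ?_⟩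
      rw [hu]; abel
  push Not at hbig
  have hval : ∀ k ∈ T, x.1 k = 4 ∨ x.1 k = -4 := fun k hk => by
    have hne : x.1 k ≠ 0 := by simpa [hTdef] using hk
    by_cases h : x.1 k = 4
    · exact Or.inl h
    · exact Or.inr (hbig k hne h)
  rcases (by omega : T.card = 0 ∨ T.card = 1 ∨ T.card = 2 ∨ T.card = 3 ∨ T.card = 4) with e | e | e | e | e
  · exfalso
    refine h0 ⟨w, ?_⟩
    rw [show x = 0 from Subtype.ext (funext fun k => hoff k (by rw [Finset.card_eq_zero.1 e]; simp))]
  · exfalso
    obtain ⟨m, -, hp, hs8, -⟩ := mem_lattice.1 x.2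
    obtain ⟨a, ha⟩ := Finset.card_eq_one.1 e
    have hs : ∑ k, x.1 k = x.1 a := Finset.sum_eq_single a (fun k _ hk => hoff k (by simp [ha, hk])) (by simp)
    have := hp a
    have := hval a (by simp [ha])
    omega
  · obtain ⟨a, b, hab, hT⟩ := Finset.card_eq_two.1 e
    refine htwo x a b (x.1 a) (x.1 b) hx hab (hval a (by simp [hT])) (hval b (by simp [hT])) (funext fun k => ?_)
    rcases eq_or_ne k a with rfl | hka
    · simp [hab]
    rcases eq_or_ne k b with rfl | hkb
    · simp [hka]
    simp [hka, hkb, hoff k (by simp [hT, hka, hkb])]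
  · exfalso
    obtain ⟨m, -, hp, hs8, -⟩ := mem_lattice.1 x.2
    obtain ⟨a, b, c, hab, hac, hbc, hT⟩ := Finset.card_eq_three.1 e
    have hs : ∑ k, x.1 k = x.1 a + x.1 b + x.1 c := by
      rw [← Finset.sum_subset (Finset.subset_univ T) (fun k _ hk => hoff k hk), hT,
        Finset.sum_insert (by simp [hab, hac]), Finset.sum_pair hbc]
      ring
    have := hp a
    have := hval a (by simp [hT])
    have := hval b (by simp [hT])
    have := hval c (by simp [hT])
    omega
  · obtain ⟨a, b, c, d, hab, hac, had, hbc, hbd, hcd, hT⟩ := Finset.card_eq_four.1 e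
    obtain ⟨u, hu⟩ : ∃ u, u ∉ T := by
      by_contra h
      push Not at h
      rw [Finset.eq_univ_of_forall h, Finset.card_univ, card_pt] at e
      omega
    simp only [hT, Finset.mem_insert, Finset.mem_singleton, not_or] at hu
    obtain ⟨σ, hσ, hσe⟩ := exists_map_tuple (n := 4) (by norm_num) ![a, b, c, d] ![a, b, c, u]
      (inj4 hab hac had hbc hbd hcd) (inj4 hab hac (Ne.symm hu.1) hbc (Ne.symm hu.2.1) (Ne.symm hu.2.2.1))
    have ea : σ a = a := hσe 0
    have eb : σ b = b := hσe 1
    have ec : σ c = c := hσe 2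
    have ed : σ d = u := hσe 3
    refine htwo (x - (mono hσ empty_mem).1 x) d u (x.1 d) (-x.1 d)
      (sub_mem hx (hstab _ (mono_mem_crossStab hσ empty_mem) x hx)) (Ne.symm hu.2.2.2)
      (hval d (by simp [hT])) (by have := hval d (by simp [hT]); omega) (funext fun k => ?_)
    show x.1 k - ((mono hσ empty_mem).1 x).1 k = _
    rw [mono_val]
    simp only [Pi.add_apply, Pi.single_apply]
    have hsym : ∀ p q, σ p = q → σ.symm q = p := fun p q h => by rw [← h, Equiv.symm_apply_apply]
    rcases eq_or_ne k a with rfl | hka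
    · rw [hsym _ _ ea, if_neg had, if_neg (Ne.symm hu.1)]; ring
    rcases eq_or_ne k b with rfl | hkb
    · rw [hsym _ _ eb, if_neg hbd, if_neg (Ne.symm hu.2.1)]; ring
    rcases eq_or_ne k c with rfl | hkc
    · rw [hsym _ _ ec, if_neg hcd, if_neg (Ne.symm hu.2.2.1)]; ring
    rcases eq_or_ne k u with rfl | hku
    · rw [hsym _ _ ed, hoff k (by simp [hT, hu]), if_neg hu.2.2.2, if_pos rfl]; ring
    have hne : σ.symm k ∉ T := by
      intro hm
      simp only [hT, Finset.mem_insert, Finset.mem_singleton] at hm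
      rcases hm with h | h | h | h <;> have hh := congrArg σ h <;> rw [Equiv.apply_symm_apply] at hh
      · exact hka (hh.trans ea)
      · exact hkb (hh.trans eb)
      · exact hkc (hh.trans ec)
      · exact hku (hh.trans ed)
    rw [hoff _ hne]
    rcases eq_or_ne k d with rfl | hkd
    · rw [if_pos rfl, if_neg hku]; ring
    · rw [hoff k (by simp [hT, hka, hkb, hkc, hkd]), if_neg hkd, if_neg hku]; ring

end CfsgLib.MonsterPlus
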