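/-
The involutions of the extraspecial subgroup in a group of Monster type.
-/
import Cfsg.Agent.MonsterPlus.Squares
import Cfsg.Agent.Components.Basic
import Cfsg.Agent.LargeEx.Conjugate
import Cfsg.Agent.PGroup.Extraspecial

set_option autoImplicit false

namespace CfsgLib.MonsterPlus

open Cfsg CfsgLib.Leech CfsgLib.LargeEx

variable {G : Type*} [Group G] {z : G} {Q : Subgroup (Subgroup.centralizer ({z} : Set G))}

/-- The subgroup inside the group. -/
abbrev amb (Q : Subgroup (Subgroup.centralizer ({z} : Set G))) : Subgroup G :=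
  Q.map (Subgroup.centralizer ({z} : Set G)).subtype

theorem mem_amb {s : G} : s ∈ amb Q ↔
    ∃ hs : s ∈ Subgroup.centralizer ({z} : Set G), (⟨s, hs⟩ : Subgroup.centralizer ({z} : Set G)) ∈ Q := by
  constructor
  · rintro ⟨c, hc, rfl⟩; exact ⟨c.2, hc⟩
  · rintro ⟨hs, h⟩; exact ⟨_, h, rfl⟩

variable [Q.Normal] {e : (Subgroup.centralizer ({z} : Set G)) ⧸ Q ≃* Cfsg.Spor.Co1}
  {ψ : Cfsg.leechLattice → Q ⧸ Subgroup.center Q}

theorem norm_eqv {v w : leechLattice} (h : Eqv v w) : (32 : ℤ) ∣ sqNorm v.1 ↔ (32 : ℤ) ∣ sqNorm w.1 := by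
  obtain ⟨u, rfl⟩ := h
  have h1 := dot_dvd w.2 u.2
  have h2 := sqNorm_dvd u.2
  have h3 : dotInt w.1 (u.1 + u.1) = 2 * dotInt w.1 u.1 := by
    simp only [dotInt, Pi.add_apply, Finset.mul_sum]
    exact Finset.sum_congr rfl fun i _ => by ring
  have h4 : sqNorm (u.1 + u.1) = 4 * sqNorm u.1 := by
    simp only [sqNorm, Pi.add_apply, Finset.mul_sum]
    exact Finset.sum_congr rfl fun i _ => by ring
  rw [show (w + (u + u)).1 = w.1 + (u.1 + u.1) from rfl, sqNorm_add, h3, h4]
  omega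

theorem psi_eqv (hψ : IsLeechModTwoIso Q e ψ) {v w : leechLattice} : ψ v = ψ w ↔ Eqv v w := by
  obtain ⟨hadd, -, hker, -⟩ := hψ
  constructor
  · intro h
    have h1 : ψ (v - w) * ψ w = ψ v := by rw [← hadd, sub_add_cancel]
    rw [h, mul_eq_right] at h1
    obtain ⟨u, hu⟩ := (hker _).1 h1
    exact ⟨u, by rw [← hu]; abel⟩
  · rintro ⟨u, rfl⟩
    rw [hadd, (hker (u + u)).2 ⟨u, rfl⟩, mul_one]

theorem psi_zero (hψ : IsLeechModTwoIso Q e ψ) : ψ 0 = 1 := (hψ.2.2.1 0).2 ⟨0, (add_zero 0).symm⟩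

/-- Conjugation by the element of the centralizer matching an automorphism. -/
theorem exists_conj (hψ : IsLeechModTwoIso Q e ψ) (g : Co0) : ∃ h : Subgroup.centralizer ({z} : Set G),
    ∀ (v : leechLattice) (q : Q), ψ v = QuotientGroup.mk q →
      ψ (g.1 v) = QuotientGroup.mk (MulAut.conjNormal h q) := by
  obtain ⟨h, hh⟩ := exists_lift (e := e) g
  exact ⟨h, fun v q hq => hψ.2.2.2 h g hh v q hq⟩

variable [Finite G]

theorem z_mem (hM : IsExtraspecialCentralizerSetting z Q 12) : z ∈ amb Q := by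
  refine mem_amb.2 ⟨Subgroup.mem_centralizer_singleton_iff.2 rfl, ?_⟩
  rw [← hM.2.1]
  refine CfsgLib.Components.centralizer_generalizedFittingSubgroup_le
    (Subgroup.mem_centralizer_iff.2 fun c _ => Subtype.ext ?_)
  exact Subgroup.mem_centralizer_singleton_iff.1 c.2

theorem extraData (hM : IsExtraspecialCentralizerSetting z Q 12) : ExtraData (amb Q) z := by
  obtain ⟨z0, he⟩ := exists_extraData (Q := Q) hM.2.2.1
  have := he.map (Subgroup.centralizer ({z} : Set G)).subtype (Subgroup.subtype_injective _)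
  obtain ⟨hzc, hzQ⟩ := mem_amb.1 (z_mem hM)
  rcases he.central _ hzQ fun x _ => Subtype.ext (Subgroup.mem_centralizer_singleton_iff.1 x.2).symm with h | h
  · refine absurd (congrArg Subtype.val h) ?_
    intro h1
    have h2 := hM.1
    rw [show z = 1 from h1, orderOf_one] at h2
    exact absurd h2 (by omega)
  · rw [← h] at this
    exact this

theorem mk_eq_one_iff (hM : IsExtraspecialCentralizerSetting z Q 12) (x : Q) :
    (QuotientGroup.mk x : Q ⧸ Subgroup.center Q) = 1 ↔
      ((x : Subgroup.centralizer ({z} : Set G)) : G) = 1 ∨ ((x : Subgroup.centralizer ({z} : Set G)) : G) = z := by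
  have he := extraData hM
  rw [QuotientGroup.eq_one_iff]
  constructor
  · intro hx
    refine he.central _ ⟨x.1, x.2, rfl⟩ ?_
    rintro _ ⟨c, hc, rfl⟩
    have := congrArg (fun t : Q => ((t : Subgroup.centralizer ({z} : Set G)) : G))
      (Subgroup.mem_center_iff.1 hx ⟨c, hc⟩)
    simpa using this.symm
  · intro hx
    refine Subgroup.mem_center_iff.2 fun y => Subtype.ext (Subtype.ext ?_)
    simp only [Subgroup.coe_mul]
    rcases hx with h | h <;> rw [h]
    · simp
    · exact (Subgroup.mem_centralizer_singleton_iff.1 y.1.2)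

theorem center_sq (hM : IsExtraspecialCentralizerSetting z Q 12) {x : Q} (hx : x ∈ Subgroup.center Q) : x * x = 1 := by
  have := (mk_eq_one_iff hM x).1 ((QuotientGroup.eq_one_iff x).2 hx)
  refine Subtype.ext (Subtype.ext ?_)
  simp only [Subgroup.coe_mul, Subgroup.coe_one]
  rcases this with h | h <;> rw [h]
  · exact mul_one 1
  · exact (extraData hM).sq

/-- The square of an element is trivial exactly when the norm of its vector is divisible by thirty-two. -/
theorem sq_eq_one_iff (hM : IsExtraspecialCentralizerSetting z Q 12) (hψ : IsLeechModTwoIso Q e ψ)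
    {v : leechLattice} {q : Q} (hq : ψ v = QuotientGroup.mk q) : q * q = 1 ↔ (32 : ℤ) ∣ sqNorm v.1 := by
  classical
  have hsame : ∀ (a b : Q), (QuotientGroup.mk a : Q ⧸ Subgroup.center Q) = QuotientGroup.mk b → b * b = a * a := by
    intro a b hab
    have hc : a⁻¹ * b ∈ Subgroup.center Q := QuotientGroup.eq.1 hab
    have hcomm := Subgroup.mem_center_iff.1 hc a
    calc b * b = a * (a⁻¹ * b) * (a * (a⁻¹ * b)) := by simp
      _ = a * a * ((a⁻¹ * b) * (a⁻¹ * b)) := by
          rw [mul_assoc a (a⁻¹ * b), ← mul_assoc (a⁻¹ * b) a, ← hcomm]; group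
      _ = a * a := by rw [center_sq hM hc, mul_one]
  -- invariance under the automorphisms
  have hinv : ∀ (g : Co0) (w : leechLattice) (a b : Q), ψ w = QuotientGroup.mk a →
      ψ (g.1 w) = QuotientGroup.mk b → (a * a = 1 ↔ b * b = 1) := by
    intro g w a b ha hb
    obtain ⟨h, hh⟩ := exists_conj hψ g
    rw [hsame _ b ((hh w a ha).symm.trans hb), ← map_mul]
    exact (map_eq_one_iff _ (MulAut.conjNormal h).injective).symm
  have hlift : ∀ w, ∃ a : Q, ψ w = QuotientGroup.mk a := fun w => by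
    obtain ⟨a, ha⟩ := QuotientGroup.mk'_surjective (Subgroup.center Q) (ψ w)
    exact ⟨a, ha.symm⟩
  have hmove : ∀ (w w' : leechLattice) (a b : Q), (∃ g : Co0, g • w = w') → ψ w = QuotientGroup.mk a →
      ψ w' = QuotientGroup.mk b → (a * a = 1 ↔ b * b = 1) := fun w w' a b hm ha hb => by
    obtain ⟨g, hg⟩ := hm
    exact hinv g w a b ha (by rw [show g.1 w = w' from hg]; exact hb)
  obtain ⟨hb1, hb2⟩ := sq_basic hM.2.2.1 hψ
  have h32 : ∀ w (a : Q), sqNorm w.1 = 32 → ψ w = QuotientGroup.mk a → a * a = 1 := fun w a hw ha => by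
    obtain ⟨b, hb⟩ := hlift (P pa pb)
    exact (hmove w _ a b (transitive32 hw (sqNorm_P good_points.1.1)) ha hb).2 (hb1 b hb.symm)
  have h64 : ∀ w (a : Q), sqNorm w.1 = 64 → ψ w = QuotientGroup.mk a → a * a = 1 := fun w a hw ha => by
    obtain ⟨b, hb⟩ := hlift (P pa pa)
    refine (hmove w _ a b (transitive64 hw ?_) ha hb).2 (hb2 b hb.symm)
    show sqNorm (four pa pa) = 64
    decide +kernel
  have hcases : ∀ w : leechLattice, sqNorm w.1 ≤ 64 →
      sqNorm w.1 = 0 ∨ sqNorm w.1 = 32 ∨ sqNorm w.1 = 48 ∨ sqNorm w.1 = 64 := fun w hw => by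
    have h1 := sqNorm_dvd w.2
    have h2 := sqNorm_nonneg w.1
    by_cases h0 : w.1 = 0
    · exact Or.inl (by rw [h0]; simp [sqNorm])
    have := sqNorm_min w.2 h0
    omega
  have hsmall : ∀ (w : leechLattice) (a : Q), sqNorm w.1 ≤ 64 → sqNorm w.1 ≠ 48 → ψ w = QuotientGroup.mk a →
      a * a = 1 := fun w a hw h48 ha => by
    rcases hcases w hw with h | h | h | h
    · have hw0 : w = 0 := Subtype.ext (sqNorm_eq_zero h)
      rw [hw0, psi_zero hψ] at ha
      exact center_sq hM ((QuotientGroup.eq_one_iff a).1 ha.symm)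
    · exact h32 w a h ha
    · exact absurd h h48
    · exact h64 w a h ha
  have h48 : ∀ w (a : Q), sqNorm w.1 = 48 → ψ w = QuotientGroup.mk a → a * a ≠ 1 := by
    intro w a hw ha h1
    have hall : ∀ b : Q, b * b = 1 := fun b => by
      obtain ⟨u, hu⟩ := hψ.2.1 (QuotientGroup.mk b)
      obtain ⟨x, hxn, hx⟩ := eqv_short u
      rw [(psi_eqv hψ).2 hx] at hu
      by_cases hx48 : sqNorm x.1 = 48
      · exact (hmove w x a b (transitive48 hw hx48) ha hu).1 h1
      · exact hsmall x b hxn hx48 hu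
    have hc : ∀ a b : Q, a * b = b * a := fun a b => by
      have i : ∀ c : Q, c⁻¹ = c := fun c => inv_eq_of_mul_eq_one_left (hall c)
      calc a * b = (a * b)⁻¹ := (i _).symm
        _ = b⁻¹ * a⁻¹ := mul_inv_rev a b
        _ = b * a := by rw [i, i]
    have htop : Subgroup.center Q = ⊤ := eq_top_iff.2 fun x _ => Subgroup.mem_center_iff.2 fun y => hc y x
    have h2 := hM.2.2.1.2
    rw [htop, Subgroup.card_top, hM.2.2.2.1] at h2
    norm_num at h2
  obtain ⟨x, hxn, hx⟩ := eqv_short v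
  rw [(psi_eqv hψ).2 hx] at hq
  rw [norm_eqv hx]
  by_cases hx48 : sqNorm x.1 = 48
  · exact iff_of_false (h48 x q hx48 hq) (by rw [hx48]; decide)
  · refine iff_of_true (hsmall x q hxn hx48 hq) ?_
    rcases hcases x hxn with h | h | h | h <;> rw [h] <;> first | decide | omega

/-- An involution outside the centre comes from a vector of norm thirty-two or sixty-four. -/
theorem exists_rep (hM : IsExtraspecialCentralizerSetting z Q 12) (hψ : IsLeechModTwoIso Q e ψ) {q : Q}
    (hq : q * q = 1) (hne : (QuotientGroup.mk q : Q ⧸ Subgroup.center Q) ≠ 1) :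
    ∃ v : leechLattice, (sqNorm v.1 = 32 ∨ sqNorm v.1 = 64) ∧ ψ v = QuotientGroup.mk q := by
  obtain ⟨u, hu⟩ := hψ.2.1 (QuotientGroup.mk q)
  obtain ⟨x, hxn, hx⟩ := eqv_short u
  rw [(psi_eqv hψ).2 hx] at hu
  refine ⟨x, ?_, hu⟩
  have h1 := sqNorm_dvd x.2
  have h32 := (sq_eq_one_iff hM hψ hu).1 hq
  have h0 : x.1 ≠ 0 := fun h => hne (by rw [← hu, show x = 0 from Subtype.ext h]; exact psi_zero hψ)
  have := sqNorm_min x.2 h0
  omega

/-- Involutions of the same type are conjugate in the centralizer. -/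
theorem conj_of_same_type (hM : IsExtraspecialCentralizerSetting z Q 12) (hψ : IsLeechModTwoIso Q e ψ)
    {v w : leechLattice} {p q : Q} (hp : ψ v = QuotientGroup.mk p) (hq : ψ w = QuotientGroup.mk q)
    (hne : (QuotientGroup.mk q : Q ⧸ Subgroup.center Q) ≠ 1)
    (h : (sqNorm v.1 = 32 ∧ sqNorm w.1 = 32) ∨ (sqNorm v.1 = 64 ∧ sqNorm w.1 = 64)) :
    ∃ c : Subgroup.centralizer ({z} : Set G), MulAut.conjNormal c p = q := by
  obtain ⟨g, hg⟩ : ∃ g : Co0, g • v = w := by
    rcases h with ⟨a, b⟩ | ⟨a, b⟩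
    · exact transitive32 a b
    · exact transitive64 a b
  obtain ⟨c, hc⟩ := exists_conj hψ g
  have h1 := hc v p hp
  rw [show g.1 v = w from hg, hq, QuotientGroup.eq] at h1
  have he := extraData hM
  have hz2 := (mk_eq_one_iff hM _).1 ((QuotientGroup.eq_one_iff _).2 h1)
  set p' := MulAut.conjNormal c p with hp'
  rcases hz2 with h2 | h2
  · refine ⟨c, ?_⟩
    have : q⁻¹ * p' = 1 := Subtype.ext (Subtype.ext h2)
    exact (inv_mul_eq_one.1 this).symm
  · have hq1 : ((q : Subgroup.centralizer ({z} : Set G)) : G) ≠ 1 ∧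
        ((q : Subgroup.centralizer ({z} : Set G)) : G) ≠ z := by
      constructor <;> intro h' <;> exact hne ((mk_eq_one_iff hM q).2 (by simp [h']))
    obtain ⟨r, hr, hrq⟩ := he.exists_conj_mul (b := ((q : Subgroup.centralizer ({z} : Set G)) : G))
      ⟨q.1, q.2, rfl⟩ hq1.1 hq1.2
    obtain ⟨r', hr', rfl⟩ := hr
    refine ⟨r'⁻¹ * c, ?_⟩
    rw [map_mul, MulAut.mul_apply, ← hp']
    refine Subtype.ext (Subtype.ext ?_)
    have hp2 : ((p' : Subgroup.centralizer ({z} : Set G)) : G) = (q : Subgroup.centralizer ({z} : Set G)) * z := by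
      have h3 : ((q : Subgroup.centralizer ({z} : Set G)) : G)⁻¹ * ((p' : Subgroup.centralizer ({z} : Set G)) : G) = z := by
        simpa using h2
      exact (inv_mul_eq_iff_eq_mul.1 h3)
    simp only [MulAut.conjNormal_apply, Subgroup.coe_mul, Subgroup.coe_inv, inv_inv, hp2]
    rw [← hrq]
    simp only [Subgroup.subtype_apply]
    group

/-- An involution of `amb Q` other than the central one, with its vector. -/
theorem amb_rep (hM : IsExtraspecialCentralizerSetting z Q 12) (hψ : IsLeechModTwoIso Q e ψ) {s : G}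
    (hs : s ∈ amb Q) (h2 : orderOf s = 2) (hsz : s ≠ z) :
    ∃ (q : Q) (v : leechLattice), ((q : Subgroup.centralizer ({z} : Set G)) : G) = s ∧
      (QuotientGroup.mk q : Q ⧸ Subgroup.center Q) ≠ 1 ∧
      (sqNorm v.1 = 32 ∨ sqNorm v.1 = 64) ∧ ψ v = QuotientGroup.mk q := by
  obtain ⟨c, hc, rfl⟩ := hs
  have hne : (QuotientGroup.mk (⟨c, hc⟩ : Q) : Q ⧸ Subgroup.center Q) ≠ 1 := fun h => by
    rcases (mk_eq_one_iff hM _).1 h with h' | h'
    · have h'' : (Subgroup.centralizer ({z} : Set G)).subtype c = 1 := h'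
      rw [h'', orderOf_one] at h2
      omega
    · exact hsz h'
  have hsq : (⟨c, hc⟩ : Q) * ⟨c, hc⟩ = 1 := by
    refine Subtype.ext (Subtype.ext ?_)
    have := pow_orderOf_eq_one ((Subgroup.centralizer ({z} : Set G)).subtype c)
    rw [h2, pow_two] at this
    simpa using this
  obtain ⟨v, hv, hv'⟩ := exists_rep hM hψ hsq hne
  exact ⟨⟨c, hc⟩, v, rfl, hne, hv, hv'⟩

theorem conj_amb_of_same_type (hM : IsExtraspecialCentralizerSetting z Q 12) (hψ : IsLeechModTwoIso Q e ψ)
    {v w : leechLattice} {p q : Q} (hp : ψ v = QuotientGroup.mk p) (hq : ψ w = QuotientGroup.mk q)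
    (hne : (QuotientGroup.mk q : Q ⧸ Subgroup.center Q) ≠ 1) (hv : sqNorm v.1 = 32 ∨ sqNorm v.1 = 64)
    (h : sqNorm v.1 = sqNorm w.1) :
    ∃ c ∈ Subgroup.centralizer ({z} : Set G),
      c * ((p : Subgroup.centralizer ({z} : Set G)) : G) * c⁻¹ = ((q : Subgroup.centralizer ({z} : Set G)) : G) := by
  obtain ⟨c, hc⟩ := conj_of_same_type hM hψ hp hq hne (by omega)
  refine ⟨c, c.2, ?_⟩
  rw [← hc]
  simp

end CfsgLib.MonsterPlus
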