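/-
The conjugates of the central involution inside the extraspecial subgroup.
-/
import Cfsg.Agent.MonsterPlus.Setting

set_option autoImplicit false

namespace CfsgLib.MonsterPlus

open Cfsg CfsgLib.Leech CfsgLib.LargeEx

variable {G : Type*} [Group G] {z : G} {Q : Subgroup (Subgroup.centralizer ({z} : Set G))}

/-- The conjugate of the extraspecial subgroup. -/
abbrev conjQ (Q : Subgroup (Subgroup.centralizer ({z} : Set G))) (g : G) : Subgroup G :=
  (amb Q).map (MulAut.conj g).toMonoidHom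

theorem mem_conjQ {g x : G} : x ∈ conjQ Q g ↔ g⁻¹ * x * g ∈ amb Q := by
  constructor
  · rintro ⟨a, ha, rfl⟩
    have : g⁻¹ * (g * a * g⁻¹) * g = a := by group
    simpa [MulAut.conj_apply, this] using ha
  · exact fun hx => ⟨_, hx, by simp [MulAut.conj_apply, mul_assoc]⟩

theorem conj_mem_amb [Q.Normal] {c x : G} (hc : c * z = z * c) (hx : x ∈ amb Q) : c * x * c⁻¹ ∈ amb Q := by
  obtain ⟨a, ha, rfl⟩ := hx
  exact ⟨_, (inferInstance : Q.Normal).conj_mem a ha ⟨c, Subgroup.mem_centralizer_singleton_iff.2 hc⟩, rfl⟩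

theorem conjQ_mul (h g : G) : conjQ Q (h * g) = (conjQ Q g).map (MulAut.conj h).toMonoidHom := by
  ext x
  rw [show x ∈ (conjQ Q g).map (MulAut.conj h).toMonoidHom ↔ (MulAut.conj h).symm x ∈ conjQ Q g from
    Subgroup.mem_map_equiv, mem_conjQ, mem_conjQ, MulAut.conj_symm_apply]
  simp [mul_assoc]

theorem conjQ_le [Q.Normal] {g g' : G} (h : g * z * g⁻¹ = g' * z * g'⁻¹) : conjQ Q g ≤ conjQ Q g' := by
  intro x hx
  rw [mem_conjQ] at hx ⊢
  have hc : (g'⁻¹ * g) * z = z * (g'⁻¹ * g) := by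
    calc (g'⁻¹ * g) * z = g'⁻¹ * (g * z * g⁻¹) * g := by group
      _ = g'⁻¹ * (g' * z * g'⁻¹) * g := by rw [h]
      _ = z * (g'⁻¹ * g) := by group
  have := conj_mem_amb hc hx
  have e : g'⁻¹ * g * (g⁻¹ * x * g) * (g'⁻¹ * g)⁻¹ = g'⁻¹ * x * g' := by group
  rwa [e] at this

theorem conj_mem_conjQ [Q.Normal] {g c x : G} (hc : c * (g * z * g⁻¹) = (g * z * g⁻¹) * c) (hx : x ∈ conjQ Q g) :
    c * x * c⁻¹ ∈ conjQ Q g := by
  have h : (g⁻¹ * c * g) * z = z * (g⁻¹ * c * g) := by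
    calc (g⁻¹ * c * g) * z = g⁻¹ * (c * (g * z * g⁻¹)) * g := by group
      _ = g⁻¹ * ((g * z * g⁻¹) * c) * g := by rw [hc]
      _ = z * (g⁻¹ * c * g) := by group
  rw [mem_conjQ] at hx ⊢
  have := conj_mem_amb h hx
  have e : g⁻¹ * c * g * (g⁻¹ * x * g) * (g⁻¹ * c * g)⁻¹ = g⁻¹ * (c * x * c⁻¹) * g := by group
  rwa [e] at this

/-- A conjugate of the central involution, other than itself, in the subgroup. -/
def Cnj (Q : Subgroup (Subgroup.centralizer ({z} : Set G))) (g : G) : Prop :=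
  g * z * g⁻¹ ∈ amb Q ∧ g * z * g⁻¹ ≠ z

variable [Q.Normal] [Finite G]

theorem conjQ_extra (hM : IsExtraspecialCentralizerSetting z Q 12) (g : G) :
    ExtraData (conjQ Q g) (g * z * g⁻¹) :=
  (extraData hM).map (MulAut.conj g).toMonoidHom (MulAut.conj g).injective

theorem card_amb (hM : IsExtraspecialCentralizerSetting z Q 12) : Nat.card (amb Q) = 2 ^ 25 := by
  rw [Subgroup.card_map_of_injective (Subgroup.subtype_injective _), hM.2.2.2.1]

theorem card_conjQ (hM : IsExtraspecialCentralizerSetting z Q 12) (g : G) : Nat.card (conjQ Q g) = 2 ^ 25 := by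
  rw [Subgroup.card_map_of_injective (MulAut.conj g).injective, card_amb hM]

theorem z_mem_conjQ (hM : IsExtraspecialCentralizerSetting z Q 12) {g : G} (hg : Cnj Q g) : z ∈ conjQ Q g := by
  refine mem_conj_of_conj_mem (extraData hM) ?_ ?_ (by rw [card_amb hM]; norm_num) g hg.1 hg.2
  · intro c hc
    have hzc : c ∈ Subgroup.centralizer ({z} : Set G) := Subgroup.mem_centralizer_singleton_iff.2
      (Subgroup.mem_centralizer_iff.1 hc z (z_mem hM)).symm
    refine mem_amb.2 ⟨hzc, ?_⟩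
    rw [← hM.2.1]
    refine CfsgLib.Components.centralizer_generalizedFittingSubgroup_le
      (Subgroup.mem_centralizer_iff.2 fun a ha => Subtype.ext ?_)
    rw [hM.2.1] at ha
    exact Subgroup.mem_centralizer_iff.1 hc a.1 ⟨a, ha, rfl⟩
  · intro c hc
    rw [Subgroup.mem_normalizer_iff]
    intro x
    have hcz : c * z = z * c := Subgroup.mem_centralizer_singleton_iff.1 hc
    refine ⟨conj_mem_amb hcz, fun hx => ?_⟩
    have := conj_mem_amb (Q := Q) (c := c⁻¹) (Commute.inv_left hcz : Commute c⁻¹ z).eq hx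
    simpa [mul_assoc] using this

theorem inter_facts (hM : IsExtraspecialCentralizerSetting z Q 12) {g : G} (hg : Cnj Q g) {x y : G}
    (hx : x ∈ amb Q ∧ x ∈ conjQ Q g) (hy : y ∈ amb Q ∧ y ∈ conjQ Q g) : x * y = y * x ∧ x * x = 1 := by
  have e1 := extraData hM
  have e2 := conjQ_extra hM g
  constructor
  · rcases e1.bracket x hx.1 y hy.1 with h | h
    · exact h
    rcases e2.bracket x hx.2 y hy.2 with h' | h'
    · exact h'
    exact absurd (mul_left_cancel (h.symm.trans h')).symm hg.2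
  · rcases e1.sq_mem hx.1 with h | h
    · exact h
    rcases e2.sq_mem hx.2 with h' | h'
    · exact h'
    exact absurd (h'.symm.trans h) hg.2

variable {e : (Subgroup.centralizer ({z} : Set G)) ⧸ Q ≃* Cfsg.Spor.Co1}
  {ψ : Cfsg.leechLattice → Q ⧸ Subgroup.center Q}

/-- The vectors of the intersection. -/
def interVecs (hψ : IsLeechModTwoIso Q e ψ) (g : G) : AddSubgroup leechLattice where
  carrier := {v | ∃ q : Q, ((q : Subgroup.centralizer ({z} : Set G)) : G) ∈ conjQ Q g ∧ ψ v = QuotientGroup.mk q}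
  zero_mem' := ⟨1, one_mem _, psi_zero hψ⟩
  add_mem' := by
    rintro v w ⟨p, hp, hv⟩ ⟨q, hq, hw⟩
    exact ⟨p * q, mul_mem hp hq, by rw [hψ.1, hv, hw]; rfl⟩
  neg_mem' := by
    rintro v ⟨p, hp, hv⟩
    exact ⟨p, hp, ((psi_eqv hψ).2 ⟨-v, by abel⟩).trans hv⟩

theorem quot_comm (hψ : IsLeechModTwoIso Q e ψ) (a b : Q ⧸ Subgroup.center Q) : a * b = b * a := by
  obtain ⟨v, rfl⟩ := hψ.2.1 a
  obtain ⟨w, rfl⟩ := hψ.2.1 b
  rw [← hψ.1, ← hψ.1, add_comm]

/-- A vector of the conjugate involution. -/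
def IsVec (Q : Subgroup (Subgroup.centralizer ({z} : Set G))) (ψ : leechLattice → Q ⧸ Subgroup.center Q)
    (g : G) (v : leechLattice) : Prop :=
  ∃ q : Q, ((q : Subgroup.centralizer ({z} : Set G)) : G) = g * z * g⁻¹ ∧ ψ v = QuotientGroup.mk q

theorem move_vecs (hψ : IsLeechModTwoIso Q e ψ) (h : Subgroup.centralizer ({z} : Set G)) (γ : Co0)
    (hγ : ∀ (v : leechLattice) (q : Q), ψ v = QuotientGroup.mk q →
      ψ (γ.1 v) = QuotientGroup.mk (MulAut.conjNormal h q)) {g : G} :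
    (∀ {v : leechLattice}, v ∈ interVecs hψ g → γ.1 v ∈ interVecs hψ ((h : G) * g)) ∧
    ∀ {v : leechLattice}, IsVec Q ψ g v → IsVec Q ψ ((h : G) * g) (γ.1 v) := by
  refine ⟨fun {v} hv => ?_, fun {v} hv => ?_⟩
  · obtain ⟨q, hq, hvq⟩ := hv
    refine ⟨_, ?_, hγ v q hvq⟩
    rw [conjQ_mul]
    exact ⟨_, hq, by simp⟩
  · obtain ⟨q, hq, hvq⟩ := hv
    refine ⟨_, ?_, hγ v q hvq⟩
    simp [hq, mul_assoc]

theorem interVecs_le (hM : IsExtraspecialCentralizerSetting z Q 12) (hψ : IsLeechModTwoIso Q e ψ) {g g' : G}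
    (hg : Cnj Q g) {v : leechLattice} (hv : IsVec Q ψ g v) (hv' : IsVec Q ψ g' v) :
    interVecs hψ g ≤ interVecs hψ g' := by
  obtain ⟨p, hp, hvp⟩ := hv
  obtain ⟨p', hp', hvp'⟩ := hv'
  have hsame : ∀ g' : G, g * z * g⁻¹ = g' * z * g'⁻¹ → interVecs hψ g ≤ interVecs hψ g' :=
    fun g' h w ⟨q, hq, hw⟩ => ⟨q, conjQ_le h hq, hw⟩
  rw [hvp, QuotientGroup.eq] at hvp'
  rcases (mk_eq_one_iff hM _).1 ((QuotientGroup.eq_one_iff _).2 hvp') with h | h
  · simp only [Subgroup.coe_mul, Subgroup.coe_inv, hp, hp', inv_mul_eq_one] at h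
    exact hsame g' h
  · simp only [Subgroup.coe_mul, Subgroup.coe_inv, hp, hp', inv_mul_eq_iff_eq_mul] at h
    obtain ⟨r, hr, hrs⟩ := (extraData hM).exists_conj_mul hg.1 (conjQ_extra hM g).ne_one hg.2
    obtain ⟨r', hr', rfl⟩ := hr
    intro w hw
    obtain ⟨q, hq, hwq⟩ := hw
    refine ⟨MulAut.conjNormal r' q, ?_, ?_⟩
    · refine conjQ_le (g := (r' : G) * g) ?_ ?_
      · rw [h, ← hrs]; simp [mul_assoc]
      · rw [conjQ_mul]; exact ⟨_, hq, by simp⟩
    · rw [hwq]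
      have e1 : MulAut.conjNormal r' q = ⟨r', hr'⟩ * q * (⟨r', hr'⟩ : Q)⁻¹ := Subtype.ext (by simp)
      rw [e1, QuotientGroup.mk_mul, QuotientGroup.mk_mul, QuotientGroup.mk_inv, quot_comm hψ (QuotientGroup.mk _),
        mul_inv_cancel_right]

/-- The conjugates in the subgroup have no vector of norm thirty-two. -/
theorem norm_ne_32 (hM : IsExtraspecialCentralizerSetting z Q 12) (hψ : IsLeechModTwoIso Q e ψ) {g0 : G}
    (hg0 : Cnj Q g0) {v0 : leechLattice} (hv0 : IsVec Q ψ g0 v0) : sqNorm v0.1 ≠ 32 := by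
  classical
  intro hn
  have he := extraData hM
  have hcnj : ∀ (h : Subgroup.centralizer ({z} : Set G)) (g : G), Cnj Q g → Cnj Q ((h : G) * g) := by
    intro h g hg
    have hz : (h : G) * z = z * h := Subgroup.mem_centralizer_singleton_iff.1 h.2
    have e1 : (h : G) * g * z * ((h : G) * g)⁻¹ = h * (g * z * g⁻¹) * (h : G)⁻¹ := by group
    refine ⟨e1 ▸ conj_mem_amb hz hg.1, fun heq => hg.2 ?_⟩
    rw [e1] at heq
    calc g * z * g⁻¹ = (h : G)⁻¹ * (h * (g * z * g⁻¹) * (h : G)⁻¹) * h := by group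
      _ = (h : G)⁻¹ * (z * h) := by rw [heq]; group
      _ = z := by rw [← hz, inv_mul_cancel_left]
  have hfind : ∀ w : leechLattice, sqNorm w.1 = 32 → ∃ g, Cnj Q g ∧ IsVec Q ψ g w := by
    intro w hw
    obtain ⟨γ, hγ⟩ := transitive32 hn hw
    obtain ⟨h, hh⟩ := exists_conj hψ γ
    exact ⟨_, hcnj h g0 hg0, hγ ▸ (move_vecs hψ h γ hh).2 hv0⟩
  obtain ⟨hG, hG'⟩ := good_points
  obtain ⟨g1, hg1, hv1⟩ := hfind (P pa pb) (sqNorm_P hG.1)
  obtain ⟨g2, hg2, hv2⟩ := hfind (P pc (Golay.pt 3)) (sqNorm_P hG'.1)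
  have hmove : ∀ (γ : Co0) {g g' : G} {v w : leechLattice}, Cnj Q g → IsVec Q ψ g v → Cnj Q g' →
      IsVec Q ψ g' w → γ.1 v = w → ∀ y ∈ interVecs hψ g, γ.1 y ∈ interVecs hψ g' := by
    intro γ g g' v w hg hv hg' hw hγv y hy
    obtain ⟨h, hh⟩ := exists_conj hψ γ
    exact interVecs_le hM hψ (hcnj h g hg) (hγv ▸ (move_vecs hψ h γ hh).2 hv) hw ((move_vecs hψ h γ hh).1 hy)
  have hfam : ∀ {a b : GolayPt} {g : G}, Cnj Q g → IsVec Q ψ g (P a b) → Family a b (interVecs hψ g) := by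
    intro a b g hg hv
    refine ⟨fun u => ⟨1, one_mem _, ?_⟩, ?_, fun γ _ hγ => hmove γ hg hv hg hv hγ⟩
    · exact (hψ.2.2.1 _).2 ⟨u, rfl⟩
    · rintro y ⟨q, hq, hyq⟩
      refine (sq_eq_one_iff hM hψ hyq).1 (Subtype.ext (Subtype.ext ?_))
      exact (inter_facts hM hg ⟨⟨q.1, q.2, rfl⟩, hq⟩ ⟨⟨q.1, q.2, rfl⟩, hq⟩).2
  have hin : P pa pb ∈ interVecs hψ g1 := by
    obtain ⟨q, hq, hvq⟩ := hv1
    exact ⟨q, hq ▸ (conjQ_extra hM g1).mem, hvq⟩
  -- a vector beyond the pair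
  have hex : ∃ y ∈ interVecs hψ g1, ¬ Eqv y 0 ∧ ¬ Eqv y (P pa pb) := by
    by_contra hno
    push Not at hno
    have er := conjQ_extra hM g1
    have key : ∀ u ∈ conjQ Q g1, u * z = z * u → u ∈ amb Q := by
      intro u hu huz
      set uc : Subgroup.centralizer ({z} : Set G) := ⟨u, Subgroup.mem_centralizer_singleton_iff.2 huz⟩ with huc
      obtain ⟨γ, hγ⟩ := QuotientGroup.mk_surjective (e (QuotientGroup.mk uc))
      have hact := hψ.2.2.2 uc γ hγ
      obtain ⟨p, hp, hvp⟩ := hv1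
      have hstab : ∀ w : leechLattice, (16 : ℤ) ∣ dotInt w.1 (P pa pb).1 →
          Eqv (γ.1 w) w ∨ Eqv (γ.1 w) (w + P pa pb) := by
        intro w hw
        obtain ⟨t, ht⟩ := QuotientGroup.mk'_surjective (Subgroup.center Q) (ψ w)
        have hwt : ψ w = QuotientGroup.mk t := ht.symm
        have hp1 : p * p = 1 := (sq_eq_one_iff hM hψ hvp).2 (by rw [sqNorm_P hG.1])
        have hst : p * t = t * p := by
          have hpt : ψ (P pa pb + w) = QuotientGroup.mk (p * t) := by rw [hψ.1, hvp, hwt]; rfl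
          have hnorm : (32 : ℤ) ∣ sqNorm (P pa pb + w).1 ↔ (32 : ℤ) ∣ sqNorm w.1 := by
            rw [AddSubgroup.coe_add, sqNorm_add, sqNorm_P hG.1, dot_comm]
            omega
          have hiff := ((sq_eq_one_iff hM hψ hpt).trans hnorm).trans (sq_eq_one_iff hM hψ hwt).symm
          have hz2 : ∀ x : Q, ((x * x : Q) : Subgroup.centralizer ({z} : Set G)).1 = 1 ∨
              ((x * x : Q) : Subgroup.centralizer ({z} : Set G)).1 = z := fun x => he.sq_mem ⟨x.1, x.2, rfl⟩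
          have heq : p * t * (p * t) = t * t := by
            rcases hz2 (p * t) with h1 | h1 <;> rcases hz2 t with h2 | h2
            · exact Subtype.ext (Subtype.ext (h1.trans h2.symm))
            · exact absurd (congrArg (fun x : Q => x.1.1) (hiff.1 (Subtype.ext (Subtype.ext h1))))
                (fun h => he.ne_one (h2.symm.trans h))
            · exact absurd (congrArg (fun x : Q => x.1.1) (hiff.2 (Subtype.ext (Subtype.ext h2))))
                (fun h => he.ne_one (h1.symm.trans h))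
            · exact Subtype.ext (Subtype.ext (h1.trans h2.symm))
          rw [← mul_assoc] at heq
          have h3 := mul_right_cancel heq
          calc p * t = p * t * (p * p) := by rw [hp1, mul_one]
            _ = p * t * p * p := (mul_assoc _ _ _).symm
            _ = t * p := by rw [h3]
        set a : Q := MulAut.conjNormal uc t * t⁻¹ with ha
        have hts : ((t : Subgroup.centralizer ({z} : Set G)) : G) * (g1 * z * g1⁻¹) =
            (g1 * z * g1⁻¹) * ((t : Subgroup.centralizer ({z} : Set G)) : G) := by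
          rw [← hp]
          exact (congrArg (fun x : Q => ((x : Subgroup.centralizer ({z} : Set G)) : G)) hst).symm
        have haR : ((a : Subgroup.centralizer ({z} : Set G)) : G) ∈ conjQ Q g1 := by
          have h1 := conj_mem_conjQ hts (inv_mem hu)
          have := mul_mem hu h1
          convert this using 1
          simp [ha, huc, mul_assoc]
        have hγw : ψ (γ.1 w) = QuotientGroup.mk a * ψ w := by
          rw [hwt, ← QuotientGroup.mk_mul, ha, inv_mul_cancel_right]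
          exact hact w t hwt
        obtain ⟨y, hy⟩ := hψ.2.1 (QuotientGroup.mk a)
        have hyW : y ∈ interVecs hψ g1 := ⟨a, haR, hy⟩
        rw [← hy, ← hψ.1] at hγw
        by_cases h0 : Eqv y 0
        · refine Or.inl ((psi_eqv hψ).1 (hγw.trans ?_))
          rw [hψ.1, (psi_eqv hψ).2 h0, psi_zero hψ, one_mul]
        · refine Or.inr ((psi_eqv hψ).1 (hγw.trans ?_))
          rw [hψ.1, hψ.1, (psi_eqv hψ).2 (hno y hyW h0), quot_comm hψ]
      have hone : (QuotientGroup.mk γ : Spor.Co1) = 1 := by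
        rcases eq_or_neg_of_stab γ hstab with h | h
        · rw [h]; rfl
        · rw [h, QuotientGroup.eq_one_iff]; exact negOne_central
      rw [hγ, map_eq_one_iff _ e.injective, QuotientGroup.eq_one_iff] at hone
      exact ⟨uc, hone, rfl⟩
    obtain ⟨x, hx, y, hy, hxz, hyz, hne⟩ := er.centralizer_nonabelian (by rw [card_conjQ hM]; norm_num)
      (z_mem_conjQ hM hg1) he.ne_one (Ne.symm hg1.2)
    exact hne (inter_facts hM hg1 ⟨key x hx hxz, hx⟩ ⟨key y hy hyz, hy⟩).1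
  obtain ⟨y, hy, h0, h1⟩ := hex
  exact (hfam hg1 hv1).trivial (hfam hg2 hv2) hin (hmove xi hg1 hv1 hg2 hv2 xi_P.1)
    (hmove xi hg2 hv2 hg1 hv1 xi_P.2) hy h0 h1

/-- The conjugates have norm sixty-four. -/
theorem conj_rep (hM : IsExtraspecialCentralizerSetting z Q 12) (hψ : IsLeechModTwoIso Q e ψ) {s : G}
    (hs : s ∈ amb Q) (hc : IsConj z s) (hsz : s ≠ z) :
    ∃ (q : Q) (v : leechLattice), ((q : Subgroup.centralizer ({z} : Set G)) : G) = s ∧
      (QuotientGroup.mk q : Q ⧸ Subgroup.center Q) ≠ 1 ∧ sqNorm v.1 = 64 ∧ ψ v = QuotientGroup.mk q := by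
  obtain ⟨g, rfl⟩ := isConj_iff.1 hc
  have h2 : orderOf (g * z * g⁻¹) = 2 := (conjQ_extra hM g).orderOf_eq
  obtain ⟨q, v, hq, hq1, hv, hvq⟩ := amb_rep hM hψ hs h2 hsz
  exact ⟨q, v, hq, hq1, hv.resolve_left (norm_ne_32 hM hψ (g0 := g) ⟨hs, hsz⟩ ⟨q, hq, hvq⟩), hvq⟩

end CfsgLib.MonsterPlus
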