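/-
The conjugate subgroup seen in the centralizer of the central involution.
-/
import Cfsg.Agent.MonsterPlus.Fusion
import Cfsg.Agent.MonsterPlus.CrossClass

set_option autoImplicit false

namespace CfsgLib.MonsterPlus

open Cfsg CfsgLib.Leech CfsgLib.LargeEx

variable {G : Type*} [Group G] {z : G} {Q : Subgroup (Subgroup.centralizer ({z} : Set G))} [Q.Normal]

/-- The part of the conjugate subgroup in the centralizer. -/
abbrev partQ (Q : Subgroup (Subgroup.centralizer ({z} : Set G))) (g : G) : Subgroup G :=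
  conjQ Q g ⊓ Subgroup.centralizer ({z} : Set G)

/-- The stabiliser in the quotient of a conjugate. -/
abbrev stabImage (Q : Subgroup (Subgroup.centralizer ({z} : Set G))) [Q.Normal] (s : G) :
    Subgroup ((Subgroup.centralizer ({z} : Set G)) ⧸ Q) :=
  ((Subgroup.centralizer ({z} : Set G) ⊓ Subgroup.centralizer ({s} : Set G)).subgroupOf
    (Subgroup.centralizer ({z} : Set G))).map (QuotientGroup.mk' Q)

/-- The image of the conjugate subgroup in the quotient. -/
abbrev partImage (Q : Subgroup (Subgroup.centralizer ({z} : Set G))) [Q.Normal] (g : G) :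
    Subgroup ((Subgroup.centralizer ({z} : Set G)) ⧸ Q) :=
  ((partQ Q g).subgroupOf (Subgroup.centralizer ({z} : Set G))).map (QuotientGroup.mk' Q)

theorem mk_mem_partImage {g : G} {c : Subgroup.centralizer ({z} : Set G)} (h : (c : G) ∈ conjQ Q g) :
    (QuotientGroup.mk c : _ ⧸ Q) ∈ partImage Q g := ⟨c, ⟨h, c.2⟩, rfl⟩

variable {e : (Subgroup.centralizer ({z} : Set G)) ⧸ Q ≃* Cfsg.Spor.Co1}
  {ψ : Cfsg.leechLattice → Q ⧸ Subgroup.center Q}

/-- The projection of the lattice group to the quotient. -/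
def proj (e : (Subgroup.centralizer ({z} : Set G)) ⧸ Q ≃* Cfsg.Spor.Co1) :
    Co0 →* (Subgroup.centralizer ({z} : Set G)) ⧸ Q :=
  (e.symm : Cfsg.Spor.Co1 →* _).comp (QuotientGroup.mk' (Subgroup.center Co0))

theorem proj_surjective (e : (Subgroup.centralizer ({z} : Set G)) ⧸ Q ≃* Cfsg.Spor.Co1) :
    Function.Surjective (proj e) := fun x => by
  obtain ⟨γ, hγ⟩ := QuotientGroup.mk_surjective (e x)
  exact ⟨γ, by show e.symm (QuotientGroup.mk γ) = x; rw [hγ, e.symm_apply_apply]⟩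

theorem proj_eq_one_iff {γ : Co0} : proj e γ = 1 ↔ γ ∈ Subgroup.center Co0 := by
  show e.symm (QuotientGroup.mk γ) = 1 ↔ _
  rw [map_eq_one_iff _ e.symm.injective, QuotientGroup.eq_one_iff]

theorem proj_eq_mk_iff {γ : Co0} {c : Subgroup.centralizer ({z} : Set G)} :
    proj e γ = QuotientGroup.mk c ↔ (QuotientGroup.mk γ : Cfsg.Spor.Co1) = e (QuotientGroup.mk c) := by
  show e.symm (QuotientGroup.mk γ) = _ ↔ _
  rw [MulEquiv.symm_apply_eq]

variable [Finite G]

/-- The automorphisms whose image fixes the conjugate are those fixing its class. -/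
theorem mem_stab_iff (hM : IsExtraspecialCentralizerSetting z Q 12) (hψ : IsLeechModTwoIso Q e ψ) {g : G}
    (hg : Cnj Q g) {v : leechLattice} (hv : IsVec Q ψ g v) {γ : Co0} :
    proj e γ ∈ stabImage Q (g * z * g⁻¹) ↔ Eqv (γ.1 v) v := by
  obtain ⟨q, hq, hvq⟩ := hv
  constructor
  · rintro ⟨c, hc, hcγ⟩
    have h := hψ.2.2.2 c γ (proj_eq_mk_iff.1 hcγ.symm) v q hvq
    refine (psi_eqv hψ).1 (h.trans (Eq.trans (congrArg _ ?_) hvq.symm))
    refine Subtype.ext (Subtype.ext ?_)
    have hcs := Subgroup.mem_centralizer_singleton_iff.1 hc.2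
    simp only [Subgroup.coe_mul, Subgroup.coe_inv, hq]
    simp only [Subgroup.subtype_apply] at hcs
    rw [hcs, mul_inv_cancel_right]
  · intro h
    obtain ⟨c, hc⟩ := QuotientGroup.mk_surjective (e.symm (QuotientGroup.mk γ))
    have hcγ : proj e γ = QuotientGroup.mk c := hc.symm
    have h1 := hψ.2.2.2 c γ (proj_eq_mk_iff.1 hcγ) v q hvq
    rw [show (γ • v : leechLattice) = γ.1 v from rfl, (psi_eqv hψ).2 h, hvq, QuotientGroup.eq] at h1
    rcases (mk_eq_one_iff hM _).1 ((QuotientGroup.eq_one_iff _).2 h1) with h2 | h2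
    · simp only [Subgroup.coe_mul, Subgroup.coe_inv, hq, inv_mul_eq_one] at h2
      refine ⟨c, ⟨c.2, Subgroup.mem_centralizer_singleton_iff.2 ?_⟩, hcγ.symm⟩
      exact (eq_mul_inv_iff_mul_eq.1 h2).symm
    · simp only [Subgroup.coe_mul, Subgroup.coe_inv, hq, inv_mul_eq_iff_eq_mul] at h2
      obtain ⟨r, hr, hrs⟩ := (extraData hM).exists_conj_mul hg.1 (conjQ_extra hM g).ne_one hg.2
      obtain ⟨r', hr', rfl⟩ := hr
      refine ⟨r'⁻¹ * c, ⟨(r'⁻¹ * c).2, Subgroup.mem_centralizer_singleton_iff.2 ?_⟩, ?_⟩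
      · simp only [Subgroup.subtype_apply] at hrs
        simp only [Subgroup.subtype_apply, Subgroup.coe_mul, Subgroup.coe_inv]
        have h3 : (c : G) * (g * z * g⁻¹) * (c : G)⁻¹ = (r' : G) * (g * z * g⁻¹) * (r' : G)⁻¹ := h2.trans hrs.symm
        calc (r' : G)⁻¹ * c * (g * z * g⁻¹) = (r' : G)⁻¹ * (c * (g * z * g⁻¹) * (c : G)⁻¹) * c := by group
          _ = g * z * g⁻¹ * ((r' : G)⁻¹ * c) := by rw [h3]; group
      · rw [hcγ, map_mul, map_inv, show QuotientGroup.mk' Q r' = 1 from (QuotientGroup.eq_one_iff r').2 hr',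
          inv_one, one_mul]
        rfl

theorem partImage_facts (hM : IsExtraspecialCentralizerSetting z Q 12) {g : G} (hg : Cnj Q g) :
    partImage Q g ≤ stabImage Q (g * z * g⁻¹) ∧
    (∀ x ∈ stabImage Q (g * z * g⁻¹), ∀ y ∈ partImage Q g, x * y * x⁻¹ ∈ partImage Q g) ∧
    IsPGroup 2 (partImage Q g) ∧ partImage Q g ≠ ⊥ := by
  have er := conjQ_extra hM g
  refine ⟨?_, ?_, ?_, ?_⟩
  · rintro _ ⟨c, hc, rfl⟩
    exact ⟨c, ⟨c.2, Subgroup.mem_centralizer_singleton_iff.2 (er.comm _ hc.1).symm⟩, rfl⟩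
  · rintro _ ⟨c, hc, rfl⟩ _ ⟨d, hd, rfl⟩
    rw [← map_inv, ← map_mul, ← map_mul]
    refine mk_mem_partImage ?_
    simpa using conj_mem_conjQ (Subgroup.mem_centralizer_singleton_iff.1 hc.2) hd.1
  · refine IsPGroup.map ?_ _
    exact (er.isPGroup.to_le inf_le_left).comap_of_injective _ (Subgroup.subtype_injective _)
  · intro hbot
    have key : ∀ x ∈ conjQ Q g, x * z = z * x → x ∈ amb Q := fun x hx hxz => by
      have := mk_mem_partImage (Q := Q) (c := ⟨x, Subgroup.mem_centralizer_singleton_iff.2 hxz⟩) hx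
      rw [hbot, Subgroup.mem_bot, QuotientGroup.eq_one_iff] at this
      exact ⟨_, this, rfl⟩
    obtain ⟨x, hx, y, hy, hxz, hyz, hne⟩ := er.centralizer_nonabelian (by rw [card_conjQ hM]; norm_num)
      (z_mem_conjQ hM hg) (extraData hM).ne_one (Ne.symm hg.2)
    exact hne (inter_facts hM hg ⟨key x hx hxz, hx⟩ ⟨key y hy hyz, hy⟩).1

/-- The whole picture, after moving the class to that of a coordinate vector. -/
theorem picture (hM : IsExtraspecialCentralizerSetting z Q 12) (hψ : IsLeechModTwoIso Q e ψ) {g : G}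
    (hg : Cnj Q g) : ∃ γ0 : Co0,
      stabImage Q (g * z * g⁻¹) = crossStab.map ((proj e).comp (MulAut.conj γ0).toMonoidHom) ∧
      partImage Q g = signChanges.map ((proj e).comp (MulAut.conj γ0).toMonoidHom) := by
  obtain ⟨q, v, hq, -, hv, hvq⟩ := conj_rep hM hψ hg.1 (isConj_iff.2 ⟨g, rfl⟩) hg.2
  obtain ⟨γ0, hγ0⟩ := transitive64 (v := eight none) (w := v) (cross_mem (eight_mem_cross none)).2 hv
  set f := (proj e).comp (MulAut.conj γ0).toMonoidHom with hf
  have hfs : Function.Surjective f := (proj_surjective e).comp (MulAut.conj γ0).surjective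
  obtain ⟨hle, hnorm, h2, hne⟩ := partImage_facts hM hg
  have hstab : (stabImage Q (g * z * g⁻¹)).comap f = crossStab := by
    ext γ
    rw [Subgroup.mem_comap, ← fix_class_iff]
    show proj e (γ0 * γ * γ0⁻¹) ∈ _ ↔ _
    rw [mem_stab_iff hM hψ hg ⟨q, hq, hvq⟩]
    have hinv : γ0⁻¹.1 v = eight none := by rw [← hγ0]; exact inv_smul_smul γ0 (eight none)
    have hv0 : γ0.1 (eight none) = v := hγ0
    show Eqv (γ0.1 (γ.1 (γ0⁻¹.1 v))) v ↔ _
    rw [hinv]
    constructor
    · rintro ⟨u, hu⟩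
      refine ⟨γ0⁻¹.1 u, γ0.1.injective ?_⟩
      rw [γ0.2.1, γ0.2.1, hu, hv0, show γ0.1 (γ0⁻¹.1 u) = u from smul_inv_smul γ0 u]
    · rintro ⟨u, hu⟩
      exact ⟨γ0.1 u, by rw [hu, γ0.2.1, γ0.2.1, hv0]⟩
  refine ⟨γ0, by rw [← hstab, Subgroup.map_comap_eq_self_of_surjective hfs], ?_⟩
  have hM' : (partImage Q g).comap f = signChanges := by
    refine eq_signChanges (hstab ▸ Subgroup.comap_mono hle) (fun γ hγ x hx => ?_) ?_ ?_ ?_
    · rw [← hstab] at hγ
      rw [Subgroup.mem_comap, map_mul, map_mul, map_inv]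
      exact hnorm _ hγ _ hx
    · rw [Subgroup.mem_comap, hf]
      show proj e (γ0 * negOne * γ0⁻¹) ∈ _
      rw [Subgroup.mem_center_iff.1 negOne_central γ0, mul_inv_cancel_right, proj_eq_one_iff.2 negOne_central]
      exact one_mem _
    · refine h2.comap_of_ker_isPGroup f fun x => ⟨1, ?_⟩
      obtain ⟨x, hx⟩ := x
      refine Subtype.ext ?_
      have hc : γ0 * x * γ0⁻¹ ∈ Subgroup.center Co0 := proj_eq_one_iff.1 hx
      have hx' : x ∈ Subgroup.center Co0 := by
        have := Subgroup.Normal.conj_mem inferInstance _ hc γ0⁻¹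
        simpa [mul_assoc] using this
      show x ^ 2 ^ 1 = 1
      rcases center_eq x hx' with rfl | rfl
      · exact one_pow _
      · rw [pow_one, pow_two, negOne_sq]
    · by_contra hno
      push Not at hno
      refine hne ((Subgroup.eq_bot_iff_forall _).2 fun y hy => ?_)
      obtain ⟨x, rfl⟩ := hfs y
      show proj e (γ0 * x * γ0⁻¹) = 1
      exact proj_eq_one_iff.2 ((inferInstance : (Subgroup.center Co0).Normal).conj_mem _ (hno x hy) γ0)
  rw [← hM', Subgroup.map_comap_eq_self_of_surjective hfs]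

theorem card_partImage (hM : IsExtraspecialCentralizerSetting z Q 12) (hψ : IsLeechModTwoIso Q e ψ) {g : G}
    (hg : Cnj Q g) : Nat.card (partImage Q g) = 2 ^ 11 := by
  obtain ⟨γ0, -, h⟩ := picture hM hψ hg
  set f := (proj e).comp (MulAut.conj γ0).toMonoidHom with hf
  let k : signChanges →* partImage Q g :=
    { toFun := fun x => ⟨f x, h ▸ Subgroup.mem_map_of_mem f x.2⟩
      map_one' := Subtype.ext (map_one f)
      map_mul' := fun a b => Subtype.ext (map_mul f a.1 b.1) }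
  have hk : Function.Surjective k := by
    rintro ⟨y, hy⟩
    rw [h] at hy
    obtain ⟨x, hx, rfl⟩ := hy
    exact ⟨⟨x, hx⟩, rfl⟩
  have hker : Nat.card k.ker = 2 := by
    have e1 : ∀ x : signChanges, x ∈ k.ker ↔ (x : Co0) ∈ Subgroup.center Co0 := fun x => by
      rw [MonoidHom.mem_ker, Subtype.ext_iff]
      show proj e (γ0 * x * γ0⁻¹) = 1 ↔ _
      rw [proj_eq_one_iff]
      refine ⟨fun hc => ?_, fun hc => (inferInstance : (Subgroup.center Co0).Normal).conj_mem _ hc γ0⟩
      have := Subgroup.Normal.conj_mem inferInstance _ hc γ0⁻¹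
      simpa [mul_assoc] using this
    have hcs : Subgroup.center Co0 ≤ signChanges := fun x hx => by
      rcases center_eq x hx with rfl | rfl
      · exact one_mem _
      · exact diag_mem univ_mem
    have hk' : k.ker = (Subgroup.center Co0).subgroupOf signChanges :=
      Subgroup.ext fun x => by rw [e1]; rfl
    rw [hk', Nat.card_congr (Subgroup.subgroupOfEquivOfLe hcs).toEquiv, card_center]
  have := Subgroup.card_eq_card_quotient_mul_card_subgroup k.ker
  rw [card_signChanges, hker, Nat.card_congr (QuotientGroup.quotientKerEquivOfSurjective k hk).toEquiv] at this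
  omega

/-- The order of the intersection. -/
theorem card_inter (hM : IsExtraspecialCentralizerSetting z Q 12) (hψ : IsLeechModTwoIso Q e ψ) {g : G}
    (hg : Cnj Q g) : Nat.card ↥(amb Q ⊓ conjQ Q g) = 2 ^ 13 := by
  have er := conjQ_extra hM g
  have he := extraData hM
  -- the centralizer of `z` has index two
  have hindex : ((partQ Q g).subgroupOf (conjQ Q g)).index = 2 := by
    obtain ⟨y, hy, hyz⟩ := er.exists_conj_mul (z_mem_conjQ hM hg) he.ne_one (Ne.symm hg.2)
    have hmem : ∀ x : conjQ Q g, x ∈ (partQ Q g).subgroupOf (conjQ Q g) ↔ (x : G) * z = z * x := fun x =>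
      ⟨fun h => Subgroup.mem_centralizer_singleton_iff.1 h.2,
        fun h => ⟨x.2, Subgroup.mem_centralizer_singleton_iff.2 h⟩⟩
    have hzs : z * (g * z * g⁻¹) = g * z * g⁻¹ * z := he.comm _ hg.1
    have hyzne : ¬ y * z = z * y := fun h => by
      rw [h, mul_inv_cancel_right] at hyz
      exact er.ne_one (mul_eq_left.1 hyz.symm)
    refine Subgroup.index_eq_two_iff.2 ⟨⟨y, hy⟩, fun b => ?_⟩
    rw [hmem, hmem]
    show Xor' ((b : G) * y * z = z * ((b : G) * y)) ((b : G) * z = z * b)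
    by_cases hb : (b : G) * z = z * b
    · refine Or.inr ⟨hb, fun h => hyzne (mul_left_cancel (a := (b : G)) ?_)⟩
      rw [← mul_assoc, h, ← mul_assoc, ← mul_assoc, hb]
    · refine Or.inl ⟨?_, hb⟩
      have h1 := er.conj_eq_mul (z_mem_conjQ hM hg) b.2 hb
      have hbs : (b : G) * (g * z * g⁻¹) * (b : G)⁻¹ = g * z * g⁻¹ := by
        rw [← er.comm _ b.2, mul_inv_cancel_right]
      calc (b : G) * y * z = (b : G) * (y * z * y⁻¹) * y := by group
        _ = ((b : G) * z * (b : G)⁻¹) * ((b : G) * (g * z * g⁻¹) * (b : G)⁻¹) * ((b : G) * y) := by rw [hyz]; group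
        _ = z * ((g * z * g⁻¹) * (g * z * g⁻¹)) * ((b : G) * y) := by rw [h1, hbs]; group
        _ = z * ((b : G) * y) := by rw [er.sq, mul_one]
  have hU : Nat.card (partQ Q g) = 2 ^ 24 := by
    have := Subgroup.card_mul_index ((partQ Q g).subgroupOf (conjQ Q g))
    rw [hindex, Nat.card_congr (Subgroup.subgroupOfEquivOfLe inf_le_left).toEquiv, card_conjQ hM] at this
    exact Nat.eq_of_mul_eq_mul_right two_pos (this.trans (pow_succ 2 24))
  let π : (partQ Q g).subgroupOf (Subgroup.centralizer ({z} : Set G)) →* partImage Q g :=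
    (QuotientGroup.mk' Q).subgroupMap _
  have hπ : Function.Surjective π := MonoidHom.subgroupMap_surjective _ _
  have h := Subgroup.card_eq_card_quotient_mul_card_subgroup π.ker
  rw [Nat.card_congr (QuotientGroup.quotientKerEquivOfSurjective π hπ).toEquiv, card_partImage hM hψ hg,
    Nat.card_congr (Subgroup.subgroupOfEquivOfLe inf_le_right).toEquiv, hU] at h
  have hk : Nat.card π.ker = Nat.card ↥(amb Q ⊓ conjQ Q g) := by
    let φ : π.ker →* G := (Subgroup.centralizer ({z} : Set G)).subtype.comp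
      (((partQ Q g).subgroupOf (Subgroup.centralizer ({z} : Set G))).subtype.comp π.ker.subtype)
    have hφ : Function.Injective φ := fun a b h => Subtype.ext (Subtype.ext (Subtype.ext h))
    have hr : φ.range = amb Q ⊓ conjQ Q g := by
      ext x
      constructor
      · rintro ⟨⟨⟨c, hc⟩, hck⟩, rfl⟩
        have : (QuotientGroup.mk c : _ ⧸ Q) = 1 := congrArg Subtype.val (MonoidHom.mem_ker.1 hck)
        exact ⟨⟨c, (QuotientGroup.eq_one_iff c).1 this, rfl⟩, hc.1⟩
      · rintro ⟨⟨c, hc, rfl⟩, hx⟩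
        exact ⟨⟨⟨c, hx, c.2⟩, MonoidHom.mem_ker.2 (Subtype.ext ((QuotientGroup.eq_one_iff c).2 hc))⟩, rfl⟩
    rw [Nat.card_congr (MonoidHom.ofInjective hφ).toEquiv, hr]
  omega

/-- The permutations in the quotient. -/
noncomputable def permHom (e : (Subgroup.centralizer ({z} : Set G)) ⧸ Q ≃* Cfsg.Spor.Co1) (γ0 : Co0) :
    M24 →* (Subgroup.centralizer ({z} : Set G)) ⧸ Q :=
  ((proj e).comp (MulAut.conj γ0).toMonoidHom).comp (MonoidHom.mk' (fun σ => perm σ.2) fun σ τ => by
    rw [perm, perm, perm, mono_mul]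
    exact mono_congr rfl (by simp))

/-- The stabiliser is the split extension. -/
theorem split_facts (hM : IsExtraspecialCentralizerSetting z Q 12) (hψ : IsLeechModTwoIso Q e ψ) {g : G}
    (hg : Cnj Q g) :
    IsElementaryAbelian 2 (partImage Q g) ∧ ∃ K : Subgroup ((Subgroup.centralizer ({z} : Set G)) ⧸ Q),
      K ≤ stabImage Q (g * z * g⁻¹) ∧ partImage Q g ⊓ K = ⊥ ∧ partImage Q g ⊔ K = stabImage Q (g * z * g⁻¹) ∧
        Nonempty (K ≃* M24) := by
  obtain ⟨γ0, hX, hE⟩ := picture hM hψ hg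
  set f := (proj e).comp (MulAut.conj γ0).toMonoidHom with hf
  set j := permHom e γ0 with hj
  have hjf : ∀ σ : M24, j σ = f (perm σ.2) := fun σ => rfl
  have hker : ∀ x, f x = 1 → x = 1 ∨ x = negOne := fun x hx => by
    have hc : γ0 * x * γ0⁻¹ ∈ Subgroup.center Co0 := proj_eq_one_iff.1 hx
    refine center_eq x ?_
    have := Subgroup.Normal.conj_mem inferInstance _ hc γ0⁻¹
    simpa [mul_assoc] using this
  have hperm1 : ∀ (σ : M24) (c : Finset GolayPt) (hc : IsCodeSet c), f (perm σ.2) = f (diag hc) → σ = 1 := by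
    intro σ c hc h
    have h1 : f ((diag hc)⁻¹ * perm σ.2) = 1 := by rw [map_mul, map_inv, h, inv_mul_cancel]
    rw [diag_inv, ← mono_eq] at h1
    rcases hker _ h1 with h2 | h2
    · exact Subtype.ext (mono_eq_one h2).1
    · exact Subtype.ext (mono_injective _ _ hc univ_mem h2).1
  have hinj : Function.Injective j := (injective_iff_map_eq_one j).2 fun σ hσ => hperm1 σ ∅ empty_mem (by
    rw [show diag (empty_mem) = (1 : Co0) from mono_one, map_one, ← hjf, hσ])
  refine ⟨?_, j.range, ?_, ?_, ?_, ⟨(MonoidHom.ofInjective hinj).symm⟩⟩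
  · rw [hE]
    refine ⟨⟨⟨fun a b => ?_⟩⟩, fun a ha => ?_⟩
    · obtain ⟨_, ⟨c, hc, rfl⟩, ea⟩ := a.2
      obtain ⟨_, ⟨d, hd, rfl⟩, eb⟩ := b.2
      refine Subtype.ext ?_
      show (a : _ ⧸ Q) * b = b * a
      rw [← ea, ← eb, ← map_mul, diag_comm, map_mul]
    · obtain ⟨_, ⟨c, hc, rfl⟩, rfl⟩ := ha
      rw [pow_two, ← map_mul]
      conv_lhs => arg 2; arg 1; rw [← diag_inv hc]
      rw [inv_mul_cancel, map_one]
  · rintro _ ⟨σ, rfl⟩
    rw [hX]
    exact ⟨_, mono_mem_crossStab σ.2 empty_mem, rfl⟩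
  · refine (Subgroup.eq_bot_iff_forall _).2 ?_
    rintro x ⟨hx1, σ, rfl⟩
    rw [SetLike.mem_coe, hE] at hx1
    obtain ⟨_, ⟨c, hc, rfl⟩, ec⟩ := hx1
    rw [hperm1 σ c hc (by rw [← hjf]; exact ec.symm), map_one]
  · refine le_antisymm (sup_le (partImage_facts hM hg).1 ?_) ?_
    · rintro _ ⟨σ, rfl⟩
      rw [hX]
      exact ⟨_, mono_mem_crossStab σ.2 empty_mem, rfl⟩
    · rw [hX]
      rintro _ ⟨x, hx, rfl⟩
      obtain ⟨σ, hσ, c, hc, rfl⟩ := exists_mono hx
      rw [mono_eq, map_mul]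
      refine Subgroup.mul_mem_sup ?_ ⟨⟨σ, hσ⟩, rfl⟩
      rw [hE]
      exact ⟨_, diag_mem hc, rfl⟩

end CfsgLib.MonsterPlus
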