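/-
The non-conjugate involutions lie in conjugates of the extraspecial subgroup.
-/
import Cfsg.Agent.MonsterPlus.Inter
import Cfsg.Agent.MonsterPlus.BabyLattice

set_option autoImplicit false

namespace CfsgLib.MonsterPlus

open Cfsg CfsgLib.Leech CfsgLib.LargeEx

variable {G : Type*} [Group G] {z : G} {Q : Subgroup (Subgroup.centralizer ({z} : Set G))} [Q.Normal]
  {e : (Subgroup.centralizer ({z} : Set G)) ⧸ Q ≃* Cfsg.Spor.Co1}
  {ψ : Cfsg.leechLattice → Q ⧸ Subgroup.center Q}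

theorem cnj_mul {c g : G} (hc : c ∈ Subgroup.centralizer ({z} : Set G)) (hg : Cnj Q g) : Cnj Q (c * g) := by
  have hz : c * z = z * c := Subgroup.mem_centralizer_singleton_iff.1 hc
  have e1 : c * g * z * (c * g)⁻¹ = c * (g * z * g⁻¹) * c⁻¹ := by group
  refine ⟨e1 ▸ conj_mem_amb hz hg.1, fun heq => hg.2 ?_⟩
  rw [e1] at heq
  calc g * z * g⁻¹ = c⁻¹ * (c * (g * z * g⁻¹) * c⁻¹) * c := by group
    _ = c⁻¹ * (z * c) := by rw [heq]; group
    _ = z := by rw [← hz, inv_mul_cancel_left]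

variable [Finite G]

theorem comm_iff (hM : IsExtraspecialCentralizerSetting z Q 12) (hψ : IsLeechModTwoIso Q e ψ) {v w : leechLattice}
    {p q : Q} (hp : ψ v = QuotientGroup.mk p) (hq : ψ w = QuotientGroup.mk q) (hv : (32 : ℤ) ∣ sqNorm v.1) :
    p * q = q * p ↔ (16 : ℤ) ∣ dotInt w.1 v.1 := by
  have he := extraData hM
  have hp1 : p * p = 1 := (sq_eq_one_iff hM hψ hp).2 hv
  have hpq : ψ (v + w) = QuotientGroup.mk (p * q) := by rw [hψ.1, hp, hq]; rfl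
  have h1 := sq_eq_one_iff hM hψ hpq
  have h2 := sq_eq_one_iff hM hψ hq
  have hn : sqNorm (v + w).1 = sqNorm v.1 + sqNorm w.1 + 2 * dotInt w.1 v.1 := by
    rw [AddSubgroup.coe_add, sqNorm_add, dot_comm]
  have h8 := dot_dvd w.2 v.2
  constructor
  · intro hc
    have hcm : Commute p q := hc
    have : p * q * (p * q) = q * q := by rw [hcm.symm.mul_mul_mul_comm, hp1, one_mul]
    rw [this, h2] at h1
    have h16 := sqNorm_dvd w.2
    omega
  · intro hd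
    have hiff : p * q * (p * q) = 1 ↔ q * q = 1 := by
      rw [h1, h2]
      omega
    have hz2 : ∀ x : Q, ((x * x : Q) : Subgroup.centralizer ({z} : Set G)).1 = 1 ∨
        ((x * x : Q) : Subgroup.centralizer ({z} : Set G)).1 = z := fun x => he.sq_mem ⟨x.1, x.2, rfl⟩
    have heq : p * q * (p * q) = q * q := by
      rcases hz2 (p * q) with a | a <;> rcases hz2 q with b | b
      · exact Subtype.ext (Subtype.ext (a.trans b.symm))
      · exact absurd (congrArg (fun x : Q => x.1.1) (hiff.1 (Subtype.ext (Subtype.ext a))))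
          (fun h => he.ne_one (b.symm.trans h))
      · exact absurd (congrArg (fun x : Q => x.1.1) (hiff.2 (Subtype.ext (Subtype.ext b))))
          (fun h => he.ne_one (a.symm.trans h))
      · exact Subtype.ext (Subtype.ext (a.trans b.symm))
    rw [← mul_assoc] at heq
    have h3 := mul_right_cancel heq
    calc p * q = p * q * (p * p) := by rw [hp1, mul_one]
      _ = p * q * p * p := (mul_assoc _ _ _).symm
      _ = q * p := by rw [h3]

/-- An involution that is not a conjugate has a vector of norm thirty-two. -/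
theorem nonconj_rep (hM : IsExtraspecialCentralizerSetting z Q 12) (hψ : IsLeechModTwoIso Q e ψ) {t : G}
    (ht : t ∈ amb Q) (h2 : orderOf t = 2) (hnc : ¬ IsConj z t) :
    ∃ (q : Q) (v : leechLattice), ((q : Subgroup.centralizer ({z} : Set G)) : G) = t ∧
      (QuotientGroup.mk q : Q ⧸ Subgroup.center Q) ≠ 1 ∧ sqNorm v.1 = 32 ∧ ψ v = QuotientGroup.mk q := by
  obtain ⟨q, v, rfl, hq1, hv, hvq⟩ := amb_rep hM hψ ht h2 (fun h => hnc (h ▸ IsConj.refl _))
  refine ⟨q, v, rfl, hq1, hv.resolve_right fun h64 => hnc ?_, hvq⟩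
  obtain ⟨g, hgQ, hgz⟩ := hM.2.2.2.2
  obtain ⟨u, y, hu, -, hy, huy⟩ := conj_rep hM hψ (mem_amb.2 hgQ) (isConj_iff.2 ⟨g, rfl⟩) hgz
  obtain ⟨c, -, hc⟩ := conj_amb_of_same_type hM hψ huy hvq hq1 (Or.inr hy) (hy.trans h64.symm)
  exact (isConj_iff.2 ⟨g, rfl⟩ : IsConj z (g * z * g⁻¹)).trans (isConj_iff.2 ⟨c, by rw [← hu]; exact hc⟩)

theorem exists_conjQ_mem (hM : IsExtraspecialCentralizerSetting z Q 12) (hψ : IsLeechModTwoIso Q e ψ) {t : G}
    (ht : t ∈ amb Q) (h2 : orderOf t = 2) (hnc : ¬ IsConj z t) : ∃ g, Cnj Q g ∧ t ∈ conjQ Q g := by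
  classical
  obtain ⟨qt, vt, hqt, hqt1, hvt, hvqt⟩ := nonconj_rep hM hψ ht h2 hnc
  obtain ⟨g0, hgQ, hgz⟩ := hM.2.2.2.2
  obtain ⟨u, y, hu, -, hy, huy⟩ := conj_rep hM hψ (mem_amb.2 hgQ) (isConj_iff.2 ⟨g0, rfl⟩) hgz
  obtain ⟨γ, hγ⟩ := transitive64 (v := y) (w := eight none) hy (cross_mem (eight_mem_cross none)).2
  obtain ⟨h, hh⟩ := exists_conj hψ γ
  set g : G := (h : G) * g0 with hgdef
  have hg : Cnj Q g := cnj_mul h.2 ⟨mem_amb.2 hgQ, hgz⟩
  have hvec : IsVec Q ψ g (eight none) := hγ ▸ (move_vecs hψ h γ hh).2 ⟨u, hu, huy⟩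
  set W := interVecs hψ g with hW
  have hdbl : ∀ x, x + x ∈ W := fun x => ⟨1, one_mem _, (hψ.2.2.1 _).2 ⟨x, rfl⟩⟩
  have hsing : ∀ x ∈ W, (32 : ℤ) ∣ sqNorm x.1 := by
    rintro x ⟨q, hq, hxq⟩
    refine (sq_eq_one_iff hM hψ hxq).1 (Subtype.ext (Subtype.ext ?_))
    exact (inter_facts hM hg ⟨⟨q.1, q.2, rfl⟩, hq⟩ ⟨⟨q.1, q.2, rfl⟩, hq⟩).2
  have hstab : ∀ a ∈ crossStab, ∀ x ∈ W, a.1 x ∈ W := by
    intro a ha x hx
    obtain ⟨c, hc⟩ := exists_conj hψ a
    obtain ⟨q', hq', hvq'⟩ := (move_vecs hψ c a hc).2 hvec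
    exact interVecs_le hM hψ (cnj_mul c.2 hg) ⟨q', hq', hvq'⟩
      (by obtain ⟨q, hq, hvq⟩ := hvec
          exact ⟨q, hq, ((psi_eqv hψ).2 (fix_class_iff.2 ha)) ▸ hvq⟩) ((move_vecs hψ c a hc).1 hx)
  have hE : eight none ∈ W := by
    obtain ⟨q, hq, hvq⟩ := hvec
    exact ⟨q, hq ▸ (conjQ_extra hM g).mem, hvq⟩
  have hex : ∃ x ∈ W, ¬ Eqv x 0 ∧ ¬ Eqv x (eight none) := by
    by_contra hno
    push Not at hno
    obtain ⟨s, hs, hvs⟩ := hvec
    have hsub : ∀ x ∈ amb Q ⊓ conjQ Q g, x ∈ ({1, z, g * z * g⁻¹, g * z * g⁻¹ * z} : Finset G) := by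
      rintro x ⟨⟨c, hc, rfl⟩, hxR⟩
      obtain ⟨w, hw⟩ := hψ.2.1 (QuotientGroup.mk (⟨c, hc⟩ : Q))
      simp only [Finset.mem_insert, Finset.mem_singleton]
      by_cases h0 : Eqv w 0
      · rw [(psi_eqv hψ).2 h0, psi_zero hψ] at hw
        rcases (mk_eq_one_iff hM _).1 hw.symm with h' | h'
        · exact Or.inl h'
        · exact Or.inr (Or.inl h')
      · rw [(psi_eqv hψ).2 (hno w ⟨⟨c, hc⟩, hxR, hw⟩ h0), hvs, QuotientGroup.eq] at hw
        rcases (mk_eq_one_iff hM _).1 ((QuotientGroup.eq_one_iff _).2 hw) with h' | h'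
        · simp only [Subgroup.coe_mul, Subgroup.coe_inv, hs, inv_mul_eq_one] at h'
          exact Or.inr (Or.inr (Or.inl h'.symm))
        · simp only [Subgroup.coe_mul, Subgroup.coe_inv, hs, inv_mul_eq_iff_eq_mul] at h'
          exact Or.inr (Or.inr (Or.inr h'))
    have h13 := card_inter hM hψ hg
    have hle : Nat.card ↥(amb Q ⊓ conjQ Q g) ≤ 4 := by
      have := Set.ncard_le_ncard (s := ((amb Q ⊓ conjQ Q g : Subgroup G) : Set G)) (fun x hx => hsub x hx)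
        (Finset.finite_toSet _)
      rw [Set.ncard_coe_finset, ← Nat.card_coe_set_eq] at this
      exact this.trans Finset.card_le_four
    omega
  obtain ⟨x, hx, h0, h1⟩ := hex
  obtain ⟨q0, hq0R, hq0⟩ := pair_mem_of_frame hdbl hsing hstab hE hx h0 h1
  obtain ⟨c, hc, hct⟩ := conj_amb_of_same_type hM hψ hq0 hvqt hqt1 (Or.inl (sqNorm_P good_points.1.1))
    ((sqNorm_P good_points.1.1).trans hvt.symm)
  refine ⟨c * g, cnj_mul hc hg, ?_⟩
  rw [← hqt, ← hct, conjQ_mul]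
  exact ⟨_, hq0R, by simp⟩

end CfsgLib.MonsterPlus
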