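/-
The centralizer of a non-conjugate involution is of Baby Monster type.
-/
import Cfsg.Agent.MonsterPlus.BabyPick
import Cfsg.Agent.Components.Basic
import Cfsg.Agent.CoprimeAction.Frattini
import Cfsg.Agent.S5411

set_option autoImplicit false

open scoped commutatorElement

namespace CfsgLib.MonsterPlus

open Cfsg CfsgLib.Leech CfsgLib.LargeEx

/-- A criterion for being extraspecial. -/
theorem isExtraspecial_two {K : Type*} [Group K] [Finite K] (hp : IsPGroup 2 K)
    (hcard : Nat.card (Subgroup.center K) = 2) (hle : ∀ a b : K, a * b * a⁻¹ * b⁻¹ ∈ Subgroup.center K)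
    (hsq : ∀ a : K, a * a ∈ Subgroup.center K) (hna : ∃ a b : K, a * b ≠ b * a) : IsExtraspecial 2 K := by
  haveI : Fact (Nat.Prime 2) := ⟨Nat.prime_two⟩
  have hle' : commutator K ≤ Subgroup.center K := by
    rw [commutator_def, Subgroup.commutator_le]
    exact fun a _ b _ => hle a b
  have hcomm : commutator K = Subgroup.center K := by
    refine le_antisymm hle' ?_
    obtain ⟨a, b, hab⟩ := hna
    have hm : ⁅a, b⁆ ∈ commutator K := Subgroup.commutator_mem_commutator (Subgroup.mem_top _) (Subgroup.mem_top _)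
    have hm1 : ⁅a, b⁆ ≠ 1 := fun h => hab (commutatorElement_eq_one_iff_mul_comm.1 h)
    intro c hc
    obtain ⟨u, hu, huniq⟩ := (Nat.card_eq_two_iff' (1 : Subgroup.center K)).1 hcard
    have e1 : (⟨⁅a, b⁆, hle' hm⟩ : Subgroup.center K) = u := huniq _ fun h => hm1 (congrArg Subtype.val h)
    rcases eq_or_ne c 1 with rfl | hc1
    · exact one_mem _
    have e2 : (⟨c, hc⟩ : Subgroup.center K) = u := huniq _ fun h => hc1 (congrArg Subtype.val h)
    rw [show c = ⁅a, b⁆ from congrArg Subtype.val (e2.trans e1.symm)]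
    exact hm
  refine ⟨⟨hp, le_antisymm ?_ ?_, hcomm⟩, hcard⟩
  · exact CfsgLib.CoprimeAction.frattini_le_of_elementary (p := 2) _ hle' fun a => by rw [pow_two]; exact hsq a
  · rw [← hcomm]
    exact CfsgLib.CoprimeAction.commutator_le_frattini' hp

theorem card_inf_centralizer {G : Type*} [Group G] [Finite G] {Q : Subgroup G} {z s : G} (he : ExtraData Q z)
    (hs : s ∈ Q) (hs1 : s ≠ 1) (hsz : s ≠ z) :
    Nat.card ↥(Q ⊓ Subgroup.centralizer ({s} : Set G)) * 2 = Nat.card Q := by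
  obtain ⟨q, hq, hqs⟩ := he.exists_conj_mul hs hs1 hsz
  have hmem : ∀ x : Q, x ∈ (Q ⊓ Subgroup.centralizer ({s} : Set G)).subgroupOf Q ↔ (x : G) * s = s * x := fun x =>
    ⟨fun h => Subgroup.mem_centralizer_singleton_iff.1 h.2,
      fun h => ⟨x.2, Subgroup.mem_centralizer_singleton_iff.2 h⟩⟩
  have hqne : ¬ q * s = s * q := fun h => by
    rw [h, mul_inv_cancel_right] at hqs
    exact he.ne_one (by simpa using hqs.symm)
  have hidx : ((Q ⊓ Subgroup.centralizer ({s} : Set G)).subgroupOf Q).index = 2 := by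
    refine Subgroup.index_eq_two_iff.2 ⟨⟨q, hq⟩, fun b => ?_⟩
    rw [hmem, hmem]
    show Xor' ((b : G) * q * s = s * ((b : G) * q)) ((b : G) * s = s * b)
    by_cases hb : (b : G) * s = s * b
    · refine Or.inr ⟨hb, fun h => hqne (mul_left_cancel (a := (b : G)) ?_)⟩
      rw [← mul_assoc, h, ← mul_assoc, ← mul_assoc, hb]
    · refine Or.inl ⟨?_, hb⟩
      have h1 := he.conj_eq_mul hs b.2 hb
      have hbz : (b : G) * z * (b : G)⁻¹ = z := by rw [← he.comm _ b.2, mul_inv_cancel_right]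
      calc (b : G) * q * s = (b : G) * (q * s * q⁻¹) * q := by group
        _ = ((b : G) * s * (b : G)⁻¹) * ((b : G) * z * (b : G)⁻¹) * ((b : G) * q) := by rw [hqs]; group
        _ = s * (z * z) * ((b : G) * q) := by rw [h1, hbz]; group
        _ = s * ((b : G) * q) := by rw [he.sq, mul_one]
  have := Subgroup.card_mul_index ((Q ⊓ Subgroup.centralizer ({s} : Set G)).subgroupOf Q)
  rwa [hidx, Nat.card_congr (Subgroup.subgroupOfEquivOfLe inf_le_left).toEquiv] at this

/-- An element of the second group as a lattice automorphism. -/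
def up : Spor.Co2 →* Co0 where
  toFun k := ⟨k.1, k.2.1⟩
  map_one' := rfl
  map_mul' _ _ := rfl

theorem up_fix (k : Spor.Co2) : up k • Spor.leechU = Spor.leechU := k.2.2

theorem up_injective : Function.Injective up := fun a b h => Subtype.ext (congrArg (fun x : Co0 => x.1) h)

variable {G : Type*} [Group G] [Finite G] {z : G} {Q : Subgroup (Subgroup.centralizer ({z} : Set G))} [Q.Normal]

theorem baby_type (hM : IsOfMonsterType z Q) {t : G} (htA : t ∈ amb Q) (ht2 : orderOf t = 2) (hnc : ¬ IsConj z t)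
    [hn : ((Subgroup.zpowers t).subgroupOf (Subgroup.centralizer ({t} : Set G))).Normal] :
    IsOfBabyMonsterType
      (↥(Subgroup.centralizer ({t} : Set G)) ⧸ (Subgroup.zpowers t).subgroupOf (Subgroup.centralizer ({t} : Set G))) := by
  classical
  obtain ⟨hS, e, ψ, hψ⟩ := hM
  have he := extraData hS
  set Ct := Subgroup.centralizer ({t} : Set G) with hCt
  set N := (Subgroup.zpowers t).subgroupOf Ct with hN
  have ht1 : t ≠ 1 := fun h => by rw [h, orderOf_one] at ht2; omega
  have htz : t ≠ z := fun h => hnc (h ▸ IsConj.refl _)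
  have httN : ∀ a : Ct, a ∈ N ↔ (a : G) = 1 ∨ (a : G) = t := by
    intro a
    show (a : G) ∈ Subgroup.zpowers t ↔ _
    constructor
    · intro h
      obtain ⟨k, hk, hk'⟩ : ∃ k : ℕ, k < 2 ∧ t ^ k = a := by
        obtain ⟨m, hm⟩ := mem_powers_iff_mem_zpowers.2 h
        exact ⟨m % 2, Nat.mod_lt _ two_pos, by rw [← ht2, pow_mod_orderOf]; exact hm⟩
      interval_cases k <;> simp_all
    · rintro (h | h) <;> rw [h]
      exacts [one_mem _, Subgroup.mem_zpowers t]
  have hzt : z * t = t * z := he.comm t htA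
  set zc : Ct := ⟨z, Subgroup.mem_centralizer_singleton_iff.2 hzt⟩ with hzc
  set π : Ct →* Ct ⧸ N := QuotientGroup.mk' N with hπ
  set zb := π zc with hzb
  have hπ1 : ∀ a : Ct, π a = 1 ↔ (a : G) = 1 ∨ (a : G) = t := fun a => (QuotientGroup.eq_one_iff a).trans (httN a)
  have hzb1 : zb ≠ 1 := fun h => by
    rcases (hπ1 zc).1 h with h' | h'
    · exact he.ne_one h'
    · exact htz h'.symm
  have hzbsq : zb * zb = 1 := by
    rw [hzb, ← map_mul, show zc * zc = 1 from Subtype.ext he.sq, map_one]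
  -- the product of the two is not a conjugate
  obtain ⟨qt, vt, hqt, hqt1, hvt, hvqt⟩ := nonconj_rep hS hψ htA ht2 hnc
  obtain ⟨r0, hr0, hr0t⟩ := he.exists_conj_mul htA ht1 htz
  have hnc' : ¬ IsConj z (t * z) := fun h =>
    hnc (h.trans (isConj_iff.2 ⟨r0⁻¹, by rw [← hr0t]; group⟩))
  set H : Subgroup G := Subgroup.centralizer ({z} : Set G) ⊓ Ct with hH
  set Dz := Subgroup.centralizer ({zb} : Set (Ct ⧸ N)) with hDz
  have hmemDz : ∀ h : H, π ⟨h, h.2.2⟩ ∈ Dz := fun h => by
    rw [hDz, Subgroup.mem_centralizer_singleton_iff, hzb, ← map_mul, ← map_mul]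
    exact congrArg π (Subtype.ext (Subgroup.mem_centralizer_singleton_iff.1 h.2.1))
  let f : H →* Dz := ((π.comp (Subgroup.inclusion inf_le_right)).codRestrict Dz fun h => hmemDz h)
  have hf : Function.Surjective f := by
    rintro ⟨d, hd⟩
    obtain ⟨a, rfl⟩ := QuotientGroup.mk'_surjective N d
    have h1 : π (zc⁻¹ * (a * zc * a⁻¹)) = 1 := by
      rw [map_mul, map_mul, map_mul, map_inv, map_inv]
      have : π a * zb = zb * π a := Subgroup.mem_centralizer_singleton_iff.1 hd
      rw [← hzb, this]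
      group
    rcases (hπ1 _).1 h1 with h2 | h2
    · simp only [hzc, Subgroup.coe_mul, Subgroup.coe_inv, inv_mul_eq_one] at h2
      exact ⟨⟨a, Subgroup.mem_centralizer_singleton_iff.2 (eq_mul_inv_iff_mul_eq.1 h2).symm, a.2⟩, rfl⟩
    · simp only [hzc, Subgroup.coe_mul, Subgroup.coe_inv, inv_mul_eq_iff_eq_mul] at h2
      exact (hnc' (isConj_iff.2 ⟨(a : G), h2.trans hzt⟩)).elim
  have hfker : ∀ h : H, f h = 1 ↔ (h : G) = 1 ∨ (h : G) = t := fun h => by
    rw [← hπ1 ⟨h, h.2.2⟩]
    exact Subtype.ext_iff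
  -- the map to the second group
  obtain ⟨γ0, hγ0⟩ := transitive32 (v := Spor.leechU) (w := vt) sqNorm_leechU hvt
  let Cz : H →* Subgroup.centralizer ({z} : Set G) := Subgroup.inclusion inf_le_left
  let θ : H →* Spor.Co1 := e.toMonoidHom.comp ((QuotientGroup.mk' Q).comp Cz)
  let J : Spor.Co2 →* Spor.Co1 := (QuotientGroup.mk' (Subgroup.center Co0)).comp
    ((MulAut.conj γ0).toMonoidHom.comp up)
  have hJ : Function.Injective J := by
    refine (injective_iff_map_eq_one J).2 fun k hk => ?_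
    have hc : γ0 * up k * γ0⁻¹ ∈ Subgroup.center Co0 := (QuotientGroup.eq_one_iff _).1 hk
    have hc' : up k ∈ Subgroup.center Co0 := by
      have := Subgroup.Normal.conj_mem inferInstance _ hc γ0⁻¹
      simpa [mul_assoc] using this
    rcases center_eq _ hc' with h | h
    · exact up_injective (h.trans up.map_one.symm)
    · exfalso
      have h1 := up_fix k
      rw [h, show negOne • Spor.leechU = -Spor.leechU from negOne_apply _] at h1
      have h0 : Spor.leechU.1 = 0 := funext fun i => by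
        have := congrFun (congrArg Subtype.val h1) i
        simp at this
        show Spor.leechU.1 i = 0
        omega
      have := sqNorm_leechU
      rw [h0] at this
      simp [sqNorm] at this
  have hfix : ∀ (h : H) (γ : Co0), (QuotientGroup.mk γ : Spor.Co1) = θ h → Eqv (γ • vt) vt := by
    intro h γ hγ
    have h1 := hψ.2.2.2 (Cz h) γ hγ vt qt hvqt
    refine (psi_eqv hψ).1 (h1.trans (Eq.trans (congrArg _ ?_) hvqt.symm))
    refine Subtype.ext (Subtype.ext ?_)
    simp only [Subgroup.coe_mul, Subgroup.coe_inv, hqt]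
    show (h : G) * t * (h : G)⁻¹ = t
    rw [Subgroup.mem_centralizer_singleton_iff.1 h.2.2, mul_inv_cancel_right]
  have hrange : ∀ h : H, θ h ∈ J.range := by
    intro h
    obtain ⟨γ, hγ⟩ := QuotientGroup.mk_surjective (θ h)
    have key : ∀ γ' : Co0, γ' • vt = vt → (QuotientGroup.mk γ' : Spor.Co1) = θ h → θ h ∈ J.range := by
      intro γ' hfx hm
      have hu : (γ0⁻¹ * γ' * γ0) • Spor.leechU = Spor.leechU := by
        rw [mul_smul, mul_smul, hγ0, hfx, ← hγ0, inv_smul_smul]
      refine ⟨⟨(γ0⁻¹ * γ' * γ0).1, (γ0⁻¹ * γ' * γ0).2, hu⟩, ?_⟩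
      rw [← hm]
      show (QuotientGroup.mk (γ0 * (γ0⁻¹ * γ' * γ0) * γ0⁻¹) : Spor.Co1) = _
      congr 1
      group
    rcases fix_short hvt (hfix h γ hγ) with h1 | h1
    · exact key γ h1 hγ
    · refine key (negOne * γ) (by rw [mul_smul, h1, show negOne • (-vt) = -(-vt) from negOne_apply _, neg_neg]) ?_
      rw [QuotientGroup.mk_mul, (QuotientGroup.eq_one_iff negOne).2 negOne_central, one_mul, hγ]
  let κ : H →* Spor.Co2 := (MonoidHom.ofInjective hJ).symm.toMonoidHom.comp (θ.codRestrict J.range hrange)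
  have hκ : ∀ h, J (κ h) = θ h := fun h => MonoidHom.apply_ofInjective_symm hJ ⟨θ h, hrange h⟩
  have hκ1 : ∀ h, κ h = 1 ↔ (h : G) ∈ amb Q := by
    intro h
    rw [← map_eq_one_iff J hJ, hκ]
    show e (QuotientGroup.mk (Cz h)) = 1 ↔ _
    rw [map_eq_one_iff _ e.injective, QuotientGroup.eq_one_iff]
    exact ⟨fun hq => ⟨_, hq, rfl⟩, fun hq => (mem_amb.1 hq).2⟩
  have hκs : Function.Surjective κ := by
    intro k
    obtain ⟨c, hc⟩ := QuotientGroup.mk_surjective (e.symm (J k))
    have hck : J k = e (QuotientGroup.mk c) := by rw [hc, MulEquiv.apply_symm_apply]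
    have h1 := hψ.2.2.2 c (γ0 * up k * γ0⁻¹) hck vt qt hvqt
    rw [mul_smul, mul_smul, ← hγ0, inv_smul_smul, up_fix, hγ0, hvqt, QuotientGroup.eq] at h1
    have done : ∀ c' : Subgroup.centralizer ({z} : Set G), (QuotientGroup.mk c' : _ ⧸ Q) = QuotientGroup.mk c →
        (c' : G) * t = t * c' → ∃ h, κ h = k := by
      intro c' hm hct
      refine ⟨⟨c', c'.2, Subgroup.mem_centralizer_singleton_iff.2 hct⟩, hJ ?_⟩
      rw [hκ, hck, ← hm]
      rfl
    rcases (mk_eq_one_iff hS _).1 ((QuotientGroup.eq_one_iff _).2 h1) with h2 | h2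
    · simp only [Subgroup.coe_mul, Subgroup.coe_inv, hqt, inv_mul_eq_one] at h2
      exact done c rfl (eq_mul_inv_iff_mul_eq.1 h2).symm
    · simp only [Subgroup.coe_mul, Subgroup.coe_inv, hqt, inv_mul_eq_iff_eq_mul] at h2
      obtain ⟨r', hr', hr0'⟩ := hr0
      subst hr0'
      refine done (r'⁻¹ * c) ?_ ?_
      · rw [QuotientGroup.mk_mul, QuotientGroup.mk_inv, (QuotientGroup.eq_one_iff r').2 hr', inv_one, one_mul]
      · simp only [Subgroup.subtype_apply] at hr0t
        simp only [Subgroup.coe_mul, Subgroup.coe_inv]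
        calc (r' : G)⁻¹ * c * t = (r' : G)⁻¹ * (c * t * (c : G)⁻¹) * c := by group
          _ = t * ((r' : G)⁻¹ * c) := by rw [h2, ← hr0t]; group
  have hkerle : f.ker ≤ κ.ker := fun h hh => by
    rw [MonoidHom.mem_ker] at hh ⊢
    rw [hκ1]
    rcases (hfker h).1 hh with h' | h' <;> rw [h']
    exacts [one_mem _, htA]
  let κ' : Dz →* Spor.Co2 := f.liftOfSurjective hf ⟨κ, hkerle⟩
  have hκ' : ∀ h, κ' (f h) = κ h := MonoidHom.liftOfRightInverse_comp_apply _ _ _ _
  have hκ's : Function.Surjective κ' := fun k => by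
    obtain ⟨h, rfl⟩ := hκs k
    exact ⟨f h, hκ' h⟩
  set R := κ'.ker with hR
  let e' : Dz ⧸ R ≃* Spor.Co2 := QuotientGroup.quotientKerEquivOfSurjective κ' hκ's
  have hRmem : ∀ r : Dz, r ∈ R ↔ ∃ h : H, (h : G) ∈ amb Q ∧ f h = r := by
    intro r
    constructor
    · intro hr
      obtain ⟨h, rfl⟩ := hf r
      exact ⟨h, (hκ1 h).1 ((hκ' h).symm.trans hr), rfl⟩
    · rintro ⟨h, hh, rfl⟩
      exact (hκ' h).trans ((hκ1 h).2 hh)
  -- the centre
  let zH : H := ⟨z, Subgroup.mem_centralizer_singleton_iff.2 rfl, zc.2⟩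
  have hzR : f zH ∈ R := (hRmem _).2 ⟨zH, he.mem, rfl⟩
  have hcomm : ∀ a b : H, (a : G) ∈ amb Q → (b : G) ∈ amb Q → f a * f b = f b * f a ∨ f a * f b = f b * f a * f zH := by
    intro a b ha hb
    rcases he.bracket _ ha _ hb with h | h
    · exact Or.inl (by rw [← map_mul, ← map_mul]; exact congrArg f (Subtype.ext h))
    · exact Or.inr (by rw [← map_mul, ← map_mul, ← map_mul]; exact congrArg f (Subtype.ext h))
  have hcen : ∀ r : R, r ∈ Subgroup.center R ↔ (r : Dz) = 1 ∨ (r : Dz) = f zH := by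
    rintro ⟨r, hr⟩
    obtain ⟨h, hh, rfl⟩ := (hRmem r).1 hr
    constructor
    · intro hc
      have hcm : ∀ x ∈ amb Q, x * t = t * x → (h : G) * x = x * h := by
        intro x hx hxt
        let xH : H := ⟨x, Subgroup.mem_centralizer_singleton_iff.2 (he.comm x hx).symm,
          Subgroup.mem_centralizer_singleton_iff.2 hxt⟩
        have h1 := congrArg Subtype.val
          (Subgroup.mem_center_iff.1 hc ⟨f xH, (hRmem _).2 ⟨xH, hx, rfl⟩⟩)
        rcases he.bracket _ hh x hx with h2 | h2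
        · exact h2
        exfalso
        have e1 : h * xH = xH * h * zH := Subtype.ext h2
        have e2 := congrArg f e1
        rw [map_mul, map_mul, map_mul] at e2
        simp only [Subgroup.coe_mul] at h1
        rw [← h1, left_eq_mul] at e2
        rcases (hfker zH).1 e2 with h3 | h3
        · exact he.ne_one h3
        · exact htz h3.symm
      rcases he.central_in_centralizer htA ht1 htz hh (Subgroup.mem_centralizer_singleton_iff.1 h.2.2) hcm
        with h' | h' | h' | h'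
      · exact Or.inl ((hfker h).2 (Or.inl h'))
      · exact Or.inr (congrArg f (Subtype.ext h' : h = zH))
      · exact Or.inl ((hfker h).2 (Or.inr h'))
      · refine Or.inr ?_
        have : f (h * zH) = 1 := (hfker _).2 (Or.inr (by
          show (h : G) * z = t
          rw [h', mul_assoc, he.sq, mul_one]))
        rw [map_mul, mul_eq_one_iff_eq_inv] at this
        refine this.trans ?_
        rw [← map_inv]
        exact congrArg f (Subtype.ext he.inv_eq)
    · intro hc
      refine Subgroup.mem_center_iff.2 fun y => Subtype.ext ?_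
      obtain ⟨y, hy⟩ := y
      obtain ⟨a, ha, rfl⟩ := (hRmem y).1 hy
      show f a * f h = f h * f a
      rcases hc with h' | h' <;> simp only at h' <;> rw [h']
      · rw [mul_one, one_mul]
      · rw [← map_mul, ← map_mul]
        exact congrArg f (Subtype.ext (he.comm _ ha).symm)
  haveI : Fact (Nat.Prime 2) := ⟨Nat.prime_two⟩
  let T : Subgroup H := (amb Q).subgroupOf H
  have hTR : T.map f = R := by
    ext r
    rw [hRmem]
    exact ⟨fun ⟨h, hh, e⟩ => ⟨h, hh, e⟩, fun ⟨h, hh, e⟩ => ⟨h, hh, e⟩⟩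
  have hpR : IsPGroup 2 R := hTR ▸ (he.isPGroup.comap_of_injective H.subtype H.subtype_injective).map f
  have hTle : Nat.card T = 2 ^ 24 := by
    have h1 := card_inf_centralizer he htA ht1 htz
    rw [card_amb hS] at h1
    have e1 : (amb Q ⊓ Ct).subgroupOf H = T := by
      ext h
      exact ⟨fun hh => hh.1, fun hh => ⟨hh, h.2.2⟩⟩
    have hle : amb Q ⊓ Ct ≤ H := fun x hx =>
      ⟨(mem_amb.1 hx.1).1, hx.2⟩
    rw [← e1, Nat.card_congr (Subgroup.subgroupOfEquivOfLe hle).toEquiv]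
    exact Nat.eq_of_mul_eq_mul_right two_pos (h1.trans (pow_succ 2 24))
  have hRcard : Nat.card R = 2 ^ 23 := by
    let F : T →* R := (f.comp T.subtype).codRestrict R fun a => (hRmem _).2 ⟨a, a.2, rfl⟩
    have hF : Function.Surjective F := by
      rintro ⟨r, hr⟩
      obtain ⟨h, hh, rfl⟩ := (hRmem r).1 hr
      exact ⟨⟨h, hh⟩, rfl⟩
    have hk : Nat.card F.ker = 2 := by
      let tT : T := ⟨⟨t, Subgroup.mem_centralizer_singleton_iff.2 hzt.symm,
        Subgroup.mem_centralizer_singleton_iff.2 rfl⟩, htA⟩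
      have hmem : ∀ a : T, a ∈ F.ker ↔ ((a : H) : G) = 1 ∨ ((a : H) : G) = t := fun a => by
        rw [MonoidHom.mem_ker, ← hfker]
        exact Subtype.ext_iff
      refine (Nat.card_eq_two_iff' (1 : F.ker)).2 ⟨⟨tT, (hmem tT).2 (Or.inr rfl)⟩, fun h => ?_, fun y hy => ?_⟩
      · exact ht1 (congrArg (fun c : F.ker => (((c : T) : H) : G)) h)
      · rcases (hmem y.1).1 y.2 with h | h
        · exact absurd (Subtype.ext (Subtype.ext (Subtype.ext h))) hy
        · exact Subtype.ext (Subtype.ext (Subtype.ext h))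
    have := Subgroup.card_eq_card_quotient_mul_card_subgroup F.ker
    rw [Nat.card_congr (QuotientGroup.quotientKerEquivOfSurjective F hF).toEquiv, hk, hTle] at this
    exact (Nat.eq_of_mul_eq_mul_right two_pos ((pow_succ 2 23).symm.trans this)).symm
  have hcardZ : Nat.card (Subgroup.center R) = 2 := by
    refine (Nat.card_eq_two_iff' (1 : Subgroup.center R)).2 ⟨⟨⟨f zH, hzR⟩, (hcen _).2 (Or.inr rfl)⟩, ?_, fun y hy => ?_⟩
    · intro h
      exact hzb1 (congrArg (fun c : Subgroup.center R => (((c : R) : Dz) : Ct ⧸ N)) h)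
    · rcases (hcen y.1).1 y.2 with h | h
      · exact absurd (Subtype.ext (Subtype.ext h)) hy
      · exact Subtype.ext (Subtype.ext h)
  have hext : IsExtraspecial 2 R := by
    refine isExtraspecial_two hpR hcardZ ?_ ?_ ?_
    · rintro ⟨a, ha⟩ ⟨b, hb⟩
      obtain ⟨p, hp, rfl⟩ := (hRmem a).1 ha
      obtain ⟨q, hq, rfl⟩ := (hRmem b).1 hb
      rw [hcen]
      rcases hcomm p q hp hq with h | h
      · left; show f p * f q * (f p)⁻¹ * (f q)⁻¹ = 1; rw [h]; group
      · right
        show f p * f q * (f p)⁻¹ * (f q)⁻¹ = f zH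
        have hzc' : ∀ a : H, (a : G) ∈ amb Q → f zH * f a = f a * f zH := fun a ha => by
          rw [← map_mul, ← map_mul]; exact congrArg f (Subtype.ext (he.comm _ ha))
        rw [h, mul_assoc (f q) (f p), ← hzc' p hp, ← mul_assoc, ← hzc' q hq]
        group
    · rintro ⟨a, ha⟩
      obtain ⟨p, hp, rfl⟩ := (hRmem a).1 ha
      rw [hcen]
      rcases he.sq_mem hp with h | h
      · left
        show f p * f p = 1
        rw [← map_mul, show p * p = 1 from Subtype.ext h, map_one]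
      · right
        show f p * f p = f zH
        rw [← map_mul]; exact congrArg f (Subtype.ext h)
    · by_contra h
      push Not at h
      have htop : Subgroup.center R = ⊤ := eq_top_iff.2 fun x _ => Subgroup.mem_center_iff.2 fun y => h y x
      rw [htop, Subgroup.card_top, hRcard] at hcardZ
      norm_num at hcardZ
  -- the module map
  have hperp : ∀ x : leechPerpU, (16 : ℤ) ∣ dotInt (γ0 • (x : leechLattice)).1 vt.1 := fun x => by
    rw [← hγ0, Leech.dot_smul]; exact x.2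
  have hlift : ∀ x : leechPerpU, ∃ (h : H) (q : Q), (h : G) = ((q : Subgroup.centralizer ({z} : Set G)) : G) ∧
      ψ (γ0 • (x : leechLattice)) = QuotientGroup.mk q := by
    intro x
    obtain ⟨q, hq⟩ := QuotientGroup.mk'_surjective (Subgroup.center Q) (ψ (γ0 • (x : leechLattice)))
    have hc := (comm_iff hS hψ hvqt hq.symm (by rw [hvt])).2 (hperp x)
    refine ⟨⟨_, q.1.2, Subgroup.mem_centralizer_singleton_iff.2 ?_⟩, q, rfl, hq.symm⟩
    rw [← hqt]
    exact (congrArg (fun a : Q => ((a : Subgroup.centralizer ({z} : Set G)) : G)) hc).symm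
  choose L Lq hLq hLψ using hlift
  have hLmem : ∀ x, ((L x : H) : G) ∈ amb Q := fun x => ⟨(Lq x).1, (Lq x).2, (hLq x).symm⟩
  let ψ' : leechPerpU → R ⧸ Subgroup.center R := fun x =>
    QuotientGroup.mk ⟨f (L x), (hRmem _).2 ⟨L x, hLmem x, rfl⟩⟩
  have hψ' : ∀ (x : leechPerpU) (h : H) (q : Q) (hh : f h ∈ R),
      (h : G) = ((q : Subgroup.centralizer ({z} : Set G)) : G) →
      ψ (γ0 • (x : leechLattice)) = QuotientGroup.mk q → ψ' x = QuotientGroup.mk ⟨f h, hh⟩ := by
    intro x h q hh e1 e2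
    show (QuotientGroup.mk _ : R ⧸ Subgroup.center R) = _
    rw [QuotientGroup.eq, hcen]
    rw [hLψ, QuotientGroup.eq] at e2
    rcases (mk_eq_one_iff hS _).1 ((QuotientGroup.eq_one_iff _).2 e2) with h' | h'
    · left
      simp only [Subgroup.coe_mul, Subgroup.coe_inv] at h'
      show (f (L x))⁻¹ * f h = 1
      rw [← map_inv, ← map_mul, hfker]
      left
      show (L x : G)⁻¹ * (h : G) = 1
      rw [hLq x, e1]; exact h'
    · right
      simp only [Subgroup.coe_mul, Subgroup.coe_inv] at h'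
      show (f (L x))⁻¹ * f h = f zH
      rw [← map_inv, ← map_mul]
      exact congrArg f (Subtype.ext (show (L x : G)⁻¹ * (h : G) = z by rw [hLq x, e1]; exact h'))
  have hone : ∀ x : leechPerpU, ψ' x = 1 ↔
      Eqv (x : leechLattice) 0 ∨ Eqv (x : leechLattice) Spor.leechU := by
    intro x
    rw [QuotientGroup.eq_one_iff, hcen]
    show f (L x) = 1 ∨ f (L x) = f zH ↔ _
    have hinv : ∀ w : leechLattice, Eqv (γ0 • (x : leechLattice)) (γ0 • w) ↔ Eqv (x : leechLattice) w := fun w =>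
      ⟨fun h => by simpa using smul_eqv (g := γ0⁻¹) h, smul_eqv⟩
    rw [← hinv 0, ← hinv Spor.leechU, show γ0 • (0 : leechLattice) = 0 from map_zero (hom γ0), hγ0, ← psi_eqv hψ, ← psi_eqv hψ, psi_zero hψ, hLψ, hvqt,
      mk_eq_one_iff hS, QuotientGroup.eq, ← QuotientGroup.eq_one_iff, mk_eq_one_iff hS, hfker]
    simp only [Subgroup.coe_mul, Subgroup.coe_inv, hqt, inv_mul_eq_one, inv_mul_eq_iff_eq_mul, mul_one, ← hLq]
    have h4 : f (L x) = f zH ↔ (L x : G) = z ∨ (L x : G) = z * t := by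
      rw [eq_comm, ← inv_mul_eq_one, ← map_inv, ← map_mul, hfker]
      show z⁻¹ * (L x : G) = 1 ∨ z⁻¹ * (L x : G) = t ↔ _
      rw [inv_mul_eq_one, inv_mul_eq_iff_eq_mul, eq_comm (a := z)]
    rw [h4]
    constructor
    · rintro ((h | h) | h | h)
      · exact Or.inl (Or.inl h)
      · exact Or.inr (Or.inl h.symm)
      · exact Or.inl (Or.inr h)
      · refine Or.inr (Or.inr ?_)
        rw [h, mul_assoc, ← hzt, ← mul_assoc, he.sq, one_mul]
    · rintro ((h | h) | h | h)
      · exact Or.inl (Or.inl h)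
      · exact Or.inr (Or.inl h)
      · exact Or.inl (Or.inr h.symm)
      · refine Or.inr (Or.inr ?_)
        calc (L x : G) = t * z⁻¹ := eq_mul_inv_of_mul_eq h.symm
          _ = z * t := by rw [he.inv_eq, hzt]
  have hadd : ∀ x y : leechPerpU, ψ' (x + y) = ψ' x * ψ' y := by
    intro x y
    have e1 : ψ (γ0 • ((x + y : leechPerpU) : leechLattice)) = QuotientGroup.mk (Lq x * Lq y) := by
      rw [AddSubgroup.coe_add, smul_add', hψ.1, hLψ, hLψ]
      rfl
    rw [hψ' (x + y) (L x * L y) (Lq x * Lq y) ((hRmem _).2 ⟨_, mul_mem (hLmem x) (hLmem y), rfl⟩)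
      (by rw [Subgroup.coe_mul, hLq, hLq]; rfl) e1, ← QuotientGroup.mk_mul]
    exact congrArg _ (Subtype.ext (map_mul f _ _))
  have hsurj : Function.Surjective ψ' := by
    intro y
    obtain ⟨⟨r, hr⟩, rfl⟩ := QuotientGroup.mk_surjective y
    obtain ⟨h, hh, rfl⟩ := (hRmem r).1 hr
    obtain ⟨hc, hcQ⟩ := mem_amb.1 hh
    obtain ⟨w, hw⟩ := hψ.2.1 (QuotientGroup.mk (⟨_, hcQ⟩ : Q))
    have hd : (16 : ℤ) ∣ dotInt w.1 vt.1 := by
      refine (comm_iff hS hψ hvqt hw (by rw [hvt])).1 (Subtype.ext (Subtype.ext ?_))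
      simp only [Subgroup.coe_mul, hqt]
      exact (Subgroup.mem_centralizer_singleton_iff.1 h.2.2).symm
    have hperp' : γ0⁻¹ • w ∈ leechPerpU := by
      show (16 : ℤ) ∣ dotInt (γ0⁻¹ • w).1 Spor.vecU
      have := Leech.dot_smul γ0 (γ0⁻¹ • w) Spor.leechU
      rw [hγ0, smul_inv_smul] at this
      exact this ▸ hd
    exact ⟨⟨_, hperp'⟩, hψ' _ h ⟨_, hcQ⟩ hr rfl (by show ψ (γ0 • (γ0⁻¹ • w)) = _; rw [smul_inv_smul]; exact hw)⟩
  have hequiv : ∀ (d : Dz) (g : Spor.Co2), e' (QuotientGroup.mk d) = g →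
      ∀ (x y : leechPerpU), g • (x : leechLattice) = (y : leechLattice) →
      ∀ q : R, ψ' x = QuotientGroup.mk q →
        ψ' y = QuotientGroup.mk ⟨d * q * d⁻¹, (inferInstance : R.Normal).conj_mem (q : Dz) q.2 d⟩ := by
    intro d g hdg x y hxy q hq
    obtain ⟨h, rfl⟩ := hf d
    have hkg : κ h = g := (hκ' h).symm.trans hdg
    have h1 := hψ.2.2.2 (Cz h) (γ0 * up g * γ0⁻¹) (by rw [← hkg]; exact hκ h) _ (Lq x) (hLψ x)
    rw [mul_smul, mul_smul, inv_smul_smul, show up g • (x : leechLattice) = (y : leechLattice) from hxy] at h1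
    have hmem : f (h * L x * h⁻¹) ∈ R := (hRmem _).2
      ⟨_, conj_mem_amb (Subgroup.mem_centralizer_singleton_iff.1 h.2.1) (hLmem x), rfl⟩
    rw [hψ' y (h * L x * h⁻¹) _ hmem (by simp [hLq x, Cz]) h1]
    have hq' : (QuotientGroup.mk q : R ⧸ Subgroup.center R) =
        QuotientGroup.mk ⟨f (L x), (hRmem _).2 ⟨L x, hLmem x, rfl⟩⟩ := hq.symm
    rw [QuotientGroup.eq, hcen] at hq'
    rw [QuotientGroup.eq, hcen]
    simp only [Subgroup.coe_mul, Subgroup.coe_inv, map_mul, map_inv] at hq' ⊢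
    have hzfix : f h * f zH * (f h)⁻¹ = f zH := by
      rw [← map_mul, ← map_inv, ← map_mul]
      refine congrArg f (Subtype.ext ?_)
      show (h : G) * z * (h : G)⁻¹ = z
      rw [Subgroup.mem_centralizer_singleton_iff.1 h.2.1, mul_inv_cancel_right]
    rcases hq' with h' | h'
    · left
      rw [inv_mul_eq_one] at h' ⊢
      rw [h']
    · right
      calc (f h * f (L x) * (f h)⁻¹)⁻¹ * (f h * (q : Dz) * (f h)⁻¹)
          = f h * ((q : Dz)⁻¹ * f (L x))⁻¹ * (f h)⁻¹ := by group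
        _ = f h * f zH * (f h)⁻¹ := by
            rw [h', ← map_inv]
            exact congrArg (fun a => f h * f a * (f h)⁻¹) (Subtype.ext he.inv_eq)
        _ = f zH := hzfix
  -- the fitting subgroup
  have hcentR : Subgroup.centralizer (R : Set Dz) ≤ R := by
    intro d hd
    obtain ⟨h, rfl⟩ := hf d
    have hup : up (κ h) = 1 := by
      refine eq_one_of_trivial sqNorm_leechU _ (up_fix _) fun w hw => ?_
      let x : leechPerpU := ⟨w, hw⟩
      have hy : up (κ h) • w ∈ leechPerpU := by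
        show (16 : ℤ) ∣ dotInt (up (κ h) • w).1 Spor.vecU
        have := Leech.dot_smul (up (κ h)) w Spor.leechU
        rw [up_fix] at this
        exact this ▸ hw
      let y : leechPerpU := ⟨_, hy⟩
      have hxy := hequiv (f h) (κ h) (hκ' h) x y rfl ⟨f (L x), (hRmem _).2 ⟨L x, hLmem x, rfl⟩⟩ rfl
      have hsame : ψ' y = ψ' x := by
        refine hxy.trans (congrArg _ (Subtype.ext ?_))
        show f h * f (L x) * (f h)⁻¹ = f (L x)
        rw [← Subgroup.mem_centralizer_iff.1 hd (f (L x)) ((hRmem _).2 ⟨L x, hLmem x, rfl⟩), mul_inv_cancel_right]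
      have h1 : ψ' (y - x) = 1 := by
        have := hadd (y - x) x
        rw [sub_add_cancel, hsame] at this
        exact mul_eq_right.1 this.symm
      rcases (hone _).1 h1 with ⟨u, hu⟩ | ⟨u, hu⟩
      · left
        refine ⟨u, ?_⟩
        rw [zero_add, AddSubgroup.coe_sub] at hu
        exact sub_eq_iff_eq_add'.1 hu
      · right
        refine ⟨u, ?_⟩
        rw [AddSubgroup.coe_sub] at hu
        refine (sub_eq_iff_eq_add'.1 hu).trans ?_
        show w + (Spor.leechU + (u + u)) = w + Spor.leechU + (u + u)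
        abel
    exact (hRmem _).2 ⟨h, (hκ1 h).1 (up_injective (hup.trans up.map_one.symm)), rfl⟩
  have hcore : pCore 2 Dz = R := by
    refine le_antisymm ?_ (le_sSup ⟨inferInstance, hpR⟩)
    refine sSup_le ?_
    rintro M ⟨hMn, hM2⟩
    have hS2 : (M.map κ').map up = ⊥ := by
      refine two_normal_bot sqNorm_leechU ?_ ?_ ((hM2.map κ').map up)
      · rintro _ ⟨k, -, rfl⟩; exact up_fix k
      · rintro a ha _ ⟨k, hk, rfl⟩
        obtain ⟨k', hk', rfl⟩ := hk
        obtain ⟨d, hd⟩ := hκ's ⟨a.1, a.2, ha⟩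
        refine ⟨κ' (d * k' * d⁻¹), ⟨_, hMn.conj_mem k' hk' d, rfl⟩, ?_⟩
        have : up (κ' d) = a := by rw [hd]; rfl
        rw [map_mul, map_mul, map_inv, map_mul, map_mul, map_inv, this]
    intro m hm
    have h1 : up (κ' m) ∈ (M.map κ').map up := ⟨_, ⟨m, hm, rfl⟩, rfl⟩
    rw [hS2, Subgroup.mem_bot] at h1
    exact up_injective (h1.trans up.map_one.symm)
  have hFit : generalizedFittingSubgroup Dz = R := by
    rw [← hcore]
    exact (CfsgLib.Components.generalizedFitting_eq_pCore_iff 2).2 (hcore ▸ hcentR)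
  -- fusion
  obtain ⟨g, hg, htg⟩ := exists_conjQ_mem hS hψ htA ht2 hnc
  have ht' : g⁻¹ * t * g ∈ amb Q := mem_conjQ.1 htg
  have hconjt : IsConj t (g⁻¹ * t * g) := isConj_iff.2 ⟨g⁻¹, by group⟩
  obtain ⟨c, hc, hct⟩ := Cfsg.Agent.S5411.result z Q ⟨hS, e, ψ, hψ⟩ t (g⁻¹ * t * g) (mem_amb.1 htA) (mem_amb.1 ht') ht2
    (by rw [← ht2, show g⁻¹ * t * g = (MulAut.conj g⁻¹).toMonoidHom t by simp,
          orderOf_injective (MulAut.conj g⁻¹).toMonoidHom (MulAut.conj g⁻¹).injective]) hnc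
    (fun h => hnc (h.trans hconjt.symm))
  have hgc : (g * c) * t = t * (g * c) := by
    calc g * c * t = g * (c * t * c⁻¹) * c := by group
      _ = t * (g * c) := by rw [hct]; group
  set gc : Ct := ⟨g * c, Subgroup.mem_centralizer_singleton_iff.2 hgc⟩ with hgcdef
  have hval : g * c * z * (g * c)⁻¹ = g * z * g⁻¹ := by
    have := Subgroup.mem_centralizer_singleton_iff.1 hc
    calc g * c * z * (g * c)⁻¹ = g * (c * z) * c⁻¹ * g⁻¹ := by group
      _ = g * z * g⁻¹ := by rw [this]; group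
  have hsz : (g * z * g⁻¹) * z = z * (g * z * g⁻¹) := (he.comm _ hg.1).symm
  let sH : H := ⟨g * z * g⁻¹, Subgroup.mem_centralizer_singleton_iff.2 hsz,
    Subgroup.mem_centralizer_singleton_iff.2 (by
      rw [← hval]
      calc g * c * z * (g * c)⁻¹ * t = g * c * (z * ((g * c)⁻¹ * t * (g * c))) * (g * c)⁻¹ := by group
        _ = g * c * (t * z) * (g * c)⁻¹ := by
            rw [show (g * c)⁻¹ * t * (g * c) = t by rw [mul_assoc, ← hgc, inv_mul_cancel_left], hzt]
        _ = t * (g * c * z * (g * c)⁻¹) := by rw [← mul_assoc, hgc]; group)⟩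
  have hzbo : orderOf zb = 2 := orderOf_eq_prime (by rw [pow_two]; exact hzbsq) hzb1
  have hconj : π gc * zb * (π gc)⁻¹ = (f sH : Ct ⧸ N) := by
    rw [hzb, ← map_inv, ← map_mul, ← map_mul]
    exact congrArg π (Subtype.ext hval)
  refine ⟨zb, R, inferInstance, ⟨hzbo, hFit, hext, hRcard, π gc, ?_, ?_⟩, e', ψ', hadd, hsurj, ?_, hequiv⟩
  · refine ⟨hconj.symm ▸ (f sH).2, ?_⟩
    convert (hRmem (f sH)).2 ⟨sH, hg.1, rfl⟩ using 1
    exact Subtype.ext hconj
  · rw [hconj]
    intro h
    have h' : π ⟨zc⁻¹.1 * (sH : G), mul_mem zc⁻¹.2 sH.2.2⟩ = 1 := by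
      rw [show (⟨zc⁻¹.1 * (sH : G), mul_mem zc⁻¹.2 sH.2.2⟩ : Ct) = zc⁻¹ * ⟨sH, sH.2.2⟩ from rfl, map_mul, map_inv]
      exact inv_mul_eq_one.2 h.symm
    rcases (hπ1 _).1 h' with h2 | h2
    · exact hg.2 (inv_mul_eq_one.1 h2).symm
    · refine hnc' ?_
      have : g * z * g⁻¹ = t * z := (inv_mul_eq_iff_eq_mul.1 h2).trans hzt
      exact isConj_iff.2 ⟨g, this⟩
  · intro x
    refine (hone x).trans ⟨fun h => ?_, fun h => ?_⟩
    · rcases h with ⟨u, hu⟩ | ⟨u, hu⟩
      · exact Or.inl ⟨u, by rw [hu, zero_add]⟩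
      · exact Or.inr ⟨u, hu⟩
    · rcases h with ⟨u, hu⟩ | ⟨u, hu⟩
      · exact Or.inl ⟨u, by rw [hu, zero_add]⟩
      · exact Or.inr ⟨u, hu⟩

end CfsgLib.MonsterPlus
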